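import Cfsg.Agent.H25.GeoLists.SpTensor.RootThree
import Cfsg.Agent.H25.GeoLists.SpTensor.Planes

/-!
Planes of the tensor product of an alternating plane and a three dimensional orthogonal space: a member with
its own kernel leads to a root element.
-/

set_option autoImplicit false
set_option linter.unusedSectionVars false

namespace Cfsg.Agent.H25.GeoLists.TS

open scoped Matrix
open Cfsg.Agent.H98 Module

attribute [-simp] Cfsg.Agent.H2.sympBilin_apply

variable {m : ℕ} {F : Type*} [Field F] {A B : Type*} [AddCommGroup A] [Module F A] [AddCommGroup B] [Module F B]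
variable {M : Subgroup (GL (Fin m ⊕ Fin m) F)} {ω : A →ₗ[F] A →ₗ[F] F} {s : B →ₗ[F] B →ₗ[F] F}
  {pu : A →ₗ[F] B →ₗ[F] (Fin m ⊕ Fin m → F)} {C : B →ₗ[F] (Fin m ⊕ Fin m → F) →ₗ[F] A}
  [Fintype F] [FiniteDimensional F A] [FiniteDimensional F B]

local notation "V" => (Fin m ⊕ Fin m → F)
local notation "Mat" => Matrix (Fin m ⊕ Fin m) (Fin m ⊕ Fin m) F
local notation "β" => Cfsg.Agent.H2.sympBilin m F

/-- A kernel vector of one member of a plane gives a root element, for five scalars. -/
theorem sp_le_of_pair₃ (T : TS M ω s pu C) (hB : 3 ≤ finrank F B) (hq5 : 5 ≤ Fintype.card F) {p q : V}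
    (hP : Pl M p q) {u : B} (hu : s u u ≠ 0) (hp : C u p = 0) (hq : C u q ≠ 0) : Cfsg.spGL m F ≤ M := by
  obtain ⟨hpq, I, hI, hIv⟩ := hP
  obtain ⟨z, hz, hzv⟩ := T.exists_z hu
  have hzp : (z : Mat) *ᵥ p = p := by rw [hzv, hp]; simp
  set r := pu (C u q) u with hr
  have h1 : β p r = 0 := by rw [← T.adj, hp, map_zero, LinearMap.zero_apply]
  have h2 : β q r = 0 := by rw [← T.adj, T.alt]
  have hq' : (z : Mat) *ᵥ q = q - (2 / s u u) • r := hzv q
  set d := 2 / s u u with hd
  have hd0 : d ≠ 0 := div_ne_zero T.two hu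
  have hconj : ∀ v, ((z * I * z⁻¹ : GL (Fin m ⊕ Fin m) F) : Mat) *ᵥ v = v - (2 : F) • proj p (q - d • r) v := by
    intro v
    set v' := ((z⁻¹ : GL (Fin m ⊕ Fin m) F) : Mat) *ᵥ v with hv'
    have hzv' : (z : Mat) *ᵥ v' = v := gl_mulVec_inv z v
    have e1 : β v (q - d • r) = β v' q := by rw [← hzv', ← hq', mem_spGL.mp (T.sp hz)]
    have e2 : β v p = β v' p := by
      conv_lhs => rw [← hzv', ← hzp]
      rw [mem_spGL.mp (T.sp hz)]
    rw [Units.val_mul, Units.val_mul, ← Matrix.mulVec_mulVec, ← Matrix.mulVec_mulVec, ← hv', hIv, proj_apply,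
      proj_apply, Matrix.mulVec_sub, hzv', e1, e2, Matrix.mulVec_smul, Matrix.mulVec_sub, Matrix.mulVec_smul,
      Matrix.mulVec_smul, hzp, hq']
  have hX : I * (z * I * z⁻¹) = spX p r (-(2 * d)) := by
    refine gl_ext fun v => ?_
    rw [Units.val_mul, ← Matrix.mulVec_mulVec, hconj, hIv, spX_mulVec h1, proj_apply, proj_apply]
    simp only [map_add, map_sub, map_smul, LinearMap.sub_apply, LinearMap.smul_apply, smul_eq_mul, beta_self,
      beta_swap p q, hpq, h1, h2, beta_swap p r, beta_swap q r]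
    match_scalars <;> ring
  refine T.sp_le_of_root₅ hB hq5 (x := p) ?_ hq hu hp (c := -(2 * d))
    (neg_ne_zero.mpr (mul_ne_zero T.two hd0)) (hX ▸ M.mul_mem hI (M.mul_mem (M.mul_mem hz hI) (M.inv_mem hz)))
  intro h0
  rw [h0, map_zero, LinearMap.zero_apply] at hpq
  exact zero_ne_one hpq

set_option maxHeartbeats 1000000 in
/-- A member whose kernel is one singular line gives everything. -/
theorem sp_le_of_singular_kernel (T : TS M ω s pu C) (hA : finrank F A = 2) (hB : finrank F B = 3)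
    (hq5 : 5 ≤ Fintype.card F) {p q : V} (hP : Pl M p q) {n : B} (hn0 : n ≠ 0) (hnn : s n n = 0)
    (hnp : C n p = 0) (hker : ∀ u, C u p = 0 → ∃ c : F, u = c • n) : Cfsg.spGL m F ≤ M := by
  classical
  haveI : Nontrivial A := Module.nontrivial_of_finrank_pos (R := F) (by omega)
  obtain ⟨a₀, ha₀⟩ := exists_ne (0 : A)
  obtain ⟨a₁, ha01⟩ := T.exists_one ha₀
  -- a basis of the second factor
  obtain ⟨n', hn'⟩ : ∃ x, s n x = 1 := by
    obtain ⟨y, hy⟩ : ∃ y, s n y ≠ 0 := by by_contra h; push Not at h; exact hn0 (T.snd n h)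
    exact ⟨(s n y)⁻¹ • y, by rw [map_smul, smul_eq_mul, inv_mul_cancel₀ hy]⟩
  obtain ⟨v, hnv, hv⟩ : ∃ v, s n v = 0 ∧ s v v ≠ 0 := by
    by_contra hc
    push Not at hc
    have h1 := two_mul_finrank_le s T.sym T.snd (K := LinearMap.ker (s n))
      fun x hx y hy => apply_eq_zero_of_singular s T.sym T.two (fun z hz => hc z hz) hx hy
    have h2 := (s n).finrank_range_add_finrank_ker
    have h3 := Submodule.finrank_le (LinearMap.range (s n))
    rw [Module.finrank_self] at h3
    omega
  set vv := s v v with hvv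
  have hvn : s v n = 0 := by rw [T.sym]; exact hnv
  set m₁ := n' - (s v n' / vv) • v with hm₁
  set μ := m₁ - (s m₁ m₁ / 2) • n with hμ
  have hnm₁ : s n m₁ = 1 := by rw [hm₁, map_sub, map_smul, hn', hnv, smul_zero, sub_zero]
  have hvm₁ : s v m₁ = 0 := by rw [hm₁, map_sub, map_smul, smul_eq_mul, ← hvv, div_mul_cancel₀ _ hv, sub_self]
  have hnμ : s n μ = 1 := by rw [hμ, map_sub, map_smul, hnm₁, hnn, smul_zero, sub_zero]
  have hμn : s μ n = 1 := by rw [T.sym]; exact hnμ
  have hvμ : s v μ = 0 := by rw [hμ, map_sub, map_smul, hvm₁, hvn, smul_zero, sub_zero]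
  have hμv : s μ v = 0 := by rw [T.sym]; exact hvμ
  have hμμ : s μ μ = 0 := by
    have h2 := T.two
    simp only [hμ, map_sub, map_smul, LinearMap.sub_apply, LinearMap.smul_apply, smul_eq_mul, hnm₁,
      T.sym m₁ n, hnn]
    field_simp
    ring
  have hli : LinearIndependent F ![n, v, μ] := by
    rw [Fintype.linearIndependent_iff]
    intro g hg
    simp only [Fin.sum_univ_three, Matrix.cons_val_zero, Matrix.cons_val_one, Matrix.cons_val_two,
      Matrix.head_cons, Matrix.tail_cons] at hg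
    have e1 := congrArg (s n) hg
    have e2 := congrArg (s v) hg
    have e3 := congrArg (s μ) hg
    simp only [map_add, map_smul, smul_eq_mul, map_zero, hnn, hnv, hnμ, hvn, ← hvv, hvμ, hμn, hμv, hμμ, mul_zero,
      mul_one, add_zero, zero_add] at e1 e2 e3
    intro i
    fin_cases i
    · exact e3
    · exact (mul_eq_zero.mp e2).resolve_right hv
    · exact e1
  have hspan : ∀ x : B, ∃ e f g : F, x = e • n + f • v + g • μ := fun x => by
    obtain ⟨c, hc⟩ := (Submodule.mem_span_range_iff_exists_fun F).mp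
      (show x ∈ Submodule.span F (Set.range ![n, v, μ]) from
        (hli.span_eq_top_of_card_eq_finrank (by simp [hB])) ▸ trivial)
    exact ⟨c 0, c 1, c 2, by rw [← hc, Fin.sum_univ_three]; rfl⟩
  clear_value μ m₁
  have hext : ∀ x y : V, C n x = C n y → C v x = C v y → C μ x = C μ y → x = y := fun x y h1 h2 h3 =>
    T.eq_of_C fun u => by
      obtain ⟨e, f, g, rfl⟩ := hspan u
      simp only [map_add, map_smul, LinearMap.add_apply, LinearMap.smul_apply, h1, h2, h3]
  -- the coordinates of the member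
  set a := C μ p with ha
  obtain ⟨a', hCvp⟩ : ∃ a', C v p = vv • a' := ⟨vv⁻¹ • C v p, (smul_inv_smul₀ hv _).symm⟩
  have hp : p = pu a n + pu a' v := hext _ _
    (by rw [hnp, map_add, T.C_pu, T.C_pu, hnn, hvn, zero_smul, zero_smul, add_zero])
    (by rw [map_add, T.C_pu, T.C_pu, hnv, zero_smul, zero_add, ← hvv]; exact hCvp)
    (by rw [map_add, T.C_pu, T.C_pu, hnμ, hvμ, one_smul, zero_smul, add_zero])
  have ha'0 : a' ≠ 0 := fun h => by
    obtain ⟨c, hc⟩ := hker v (by rw [hCvp, h, smul_zero])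
    exact hv (by rw [hvv, hc]; simp [hnn])
  set d := ω a a' with hd
  have hd0 : d ≠ 0 := by
    intro h
    obtain ⟨l, hl⟩ := Submodule.mem_span_singleton.mp (T.dependent hA ha'0 h)
    obtain ⟨c, hc⟩ := hker (l • v - vv • μ) (by
      rw [map_sub, map_smul, map_smul, LinearMap.sub_apply, LinearMap.smul_apply, LinearMap.smul_apply, hCvp, ← ha,
        ← hl, smul_comm, sub_self])
    have := congrArg (s n) hc
    rw [map_sub, map_smul, map_smul, map_smul, hnv, hnμ, hnn] at this
    exact hv (by simpa using this)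
  have ha'a : ω a' a = -d := T.ωswap a a'
  -- the element fixing the member
  set c := -(vv / d) with hc
  have hc0 : c ≠ 0 := neg_ne_zero.mpr (div_ne_zero hv hd0)
  have hcd : c * d = -vv := by rw [hc, neg_mul, div_mul_cancel₀ _ hd0]
  set τ := tv ω a' c with hτ
  let ρ : B →ₗ[F] B := LinearMap.id + (s.flip v).smulRight n - (s.flip n).smulRight v -
    (vv / 2) • (s.flip n).smulRight n
  let ρ' : B →ₗ[F] B := LinearMap.id - (s.flip v).smulRight n + (s.flip n).smulRight v -
    (vv / 2) • (s.flip n).smulRight n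
  have hρ : ∀ x, ρ x = x + s x v • n - s x n • v - (vv / 2 * s x n) • n := fun x => by simp [ρ, smul_smul]
  have hρ' : ∀ x, ρ' x = x - s x v • n + s x n • v - (vv / 2 * s x n) • n := fun x => by simp [ρ', smul_smul]
  have hρs : ∀ x y, s (ρ x) (ρ y) = s x y := fun x y => by
    have h2 := T.two
    simp only [hρ, map_add, map_sub, map_smul, LinearMap.add_apply, LinearMap.sub_apply, LinearMap.smul_apply,
      smul_eq_mul, hnn, hnv, hvn, ← hvv, T.sym n y, T.sym v y]
    field_simp
    ring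
  obtain ⟨h, hh, he⟩ := T.isom τ ρ (T.tv_isom a' c) hρs
  have hsp := mem_spGL.mp (T.sp hh)
  have hCh : ∀ u y, C u ((h : Mat) *ᵥ y) = τ (C (ρ' u) y) := fun u y => by
    refine congrArg (fun f => f y) (T.ext_pu (f := (C u).comp (Matrix.mulVecLin (h : Mat)))
      (g := τ.comp (C (ρ' u))) fun x w => ?_)
    simp only [LinearMap.comp_apply, Matrix.mulVecLin_apply, he, T.C_pu, map_smul]
    congr 1
    simp only [hρ, hρ', map_add, map_sub, map_smul, LinearMap.add_apply, LinearMap.sub_apply, LinearMap.smul_apply,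
      smul_eq_mul, T.sym n u, T.sym v u]
    ring
  have hρ'n : ρ' n = n := by rw [hρ', hnv, hnn]; simp
  have hρ'v : ρ' v = v - vv • n := by rw [hρ', hvn, ← hvv]; simp
  have hρ'μ : ρ' μ = μ + v - (vv / 2) • n := by rw [hρ', hμv, hμn]; simp
  have hτx : ∀ x, τ x = x + (c * ω x a') • a' := fun x => tv_apply a' c x
  -- the displacement in coordinates
  have hDn : ∀ y, C n ((h : Mat) *ᵥ y - y) = (c * ω (C n y) a') • a' := fun y => by
    rw [map_sub, hCh, hρ'n, hτx, add_sub_cancel_left]
  have hDv : ∀ y, C v ((h : Mat) *ᵥ y - y) =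
      (c * ω (C v y) a') • a' - vv • (C n y + (c * ω (C n y) a') • a') := fun y => by
    rw [map_sub, hCh, hρ'v, map_sub C, map_smul C, LinearMap.sub_apply, LinearMap.smul_apply, map_sub, map_smul,
      hτx, hτx]
    module
  have hDμ : ∀ y, C μ ((h : Mat) *ᵥ y - y) = (c * ω (C μ y) a') • a' + (C v y + (c * ω (C v y) a') • a') -
      (vv / 2) • (C n y + (c * ω (C n y) a') • a') := fun y => by
    rw [map_sub, hCh, hρ'μ, map_sub C, map_smul C, map_add C, LinearMap.sub_apply, LinearMap.smul_apply,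
      LinearMap.add_apply, map_sub, map_smul, map_add, hτx, hτx, hτx]
    module
  have hphp : (h : Mat) *ᵥ p = p := by
    rw [← sub_eq_zero]
    refine hext _ _ ?_ ?_ ?_
    · rw [hDn, hnp]; simp
    · rw [hDv, hnp, hCvp, map_smul, LinearMap.smul_apply, T.alt]; simp
    · rw [hDμ, hnp, hCvp, ← ha, ← hd, map_smul, LinearMap.smul_apply, T.alt, hcd]; simp
  -- the root element in the last stage
  set π := pu a' v with hπ
  have hwn : ∀ z : A, C v (pu z n) = 0 := fun z => by rw [T.C_pu, hnv, zero_smul]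
  set w := pu a' n with hw
  have hpw : β p w = 0 := by
    rw [hp, hw, map_add, LinearMap.add_apply, T.form, T.form, hnn, hvn, mul_zero, mul_zero, add_zero]
  have core : ∀ z e : F, ¬ (z = 0 ∧ e = 0) → spX p (z • w) 2 * spTrans p e ∈ M → Cfsg.spGL m F ≤ M := by
    intro z e hze hE
    set E := spX p (z • w) (2 : F) * spTrans p e with hEdef
    obtain ⟨Z, hZ, hZv⟩ := T.exists_z hv
    have hZp : (Z : Mat) *ᵥ p = p - (2 : F) • π := by
      rw [hZv, hCvp, map_smul, LinearMap.smul_apply, smul_smul, ← hvv, div_mul_cancel₀ _ hv]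
    have hZw : (Z : Mat) *ᵥ w = w := by rw [hZv, hwn]; simp
    set x := (4 * z) • w + (2 * e) • pu a n with hx
    have hpπ : pu a n = p - π := by rw [hp, hπ, add_sub_cancel_right]
    have hpzw : β p (z • w) = 0 := by rw [map_smul, hpw, smul_zero]
    have hππ : ∀ y, β π (pu y n) = 0 := fun y => by rw [hπ, T.form, hvn, mul_zero]
    have hπx : β x π = 0 := by
      rw [beta_swap π x, hx, map_add, map_smul, map_smul, hw, hππ, hππ]; simp
    have hmem := M.mul_mem hE (M.inv_mem (M.mul_mem (M.mul_mem hZ hE) (M.inv_mem hZ)))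
    have key : E = spX x π 1 * (Z * E * Z⁻¹) := by
      have e1 : Z * E * Z⁻¹ = spX (p - (2 : F) • π) (z • w) 2 * spTrans (p - (2 : F) • π) e := by
        rw [hEdef, show Z * (spX p (z • w) 2 * spTrans p e) * Z⁻¹ =
          (Z * spX p (z • w) 2 * Z⁻¹) * (Z * spTrans p e * Z⁻¹) by group, conj_spX (T.sp hZ), conj_spTrans (T.sp hZ),
          hZp, Matrix.mulVec_smul, hZw]
      have hpz' : β (p - (2 : F) • π) (z • w) = 0 := by
        simp [hpw, show β π w = 0 from hππ a']
      have hpπ0 : β p π = 0 := by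
        rw [hp, hπ, map_add, LinearMap.add_apply, T.form, T.form, hnv, T.alt]; simp
      have hπp : β π p = 0 := by rw [beta_swap p π, hpπ0, neg_zero]
      have hwπ : β w π = 0 := by rw [beta_swap π w, hw, hππ, neg_zero]
      have hwp : β w p = 0 := by rw [beta_swap p w, hpw, neg_zero]
      have hπw : β π w = 0 := hππ a'
      refine gl_ext fun y => ?_
      rw [e1, hEdef]
      simp only [Units.val_mul, ← Matrix.mulVec_mulVec, spX_mulVec hpzw, spX_mulVec hpz', spX_mulVec hπx,
        spTrans_mulVec]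
      simp only [hx, hpπ, map_add, map_sub, map_smul, LinearMap.add_apply, LinearMap.sub_apply, LinearMap.smul_apply,
        smul_eq_mul, beta_self, hpw, hwp, hpπ0, hπp, hwπ, hπw]
      match_scalars <;> ring
    rw [← eq_mul_inv_iff_mul_eq.mpr key.symm] at hmem
    refine T.sp_le_of_root₅ (by omega) hq5 (x := x) (fun h0 => ?_) ha'0 hv ?_ (c := 1) one_ne_zero hmem
    · have h1 := congrArg (C μ) h0
      rw [hx, map_add, map_smul, map_smul, hw, T.C_pu, T.C_pu, hnμ, one_smul, one_smul, map_zero] at h1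
      have h2 := congrArg (fun y => ω y a') h1
      have h3 := congrArg (ω a) h1
      simp only [map_add, map_smul, LinearMap.add_apply, LinearMap.smul_apply, smul_eq_mul, T.alt, ← hd, map_zero,
        LinearMap.zero_apply, mul_zero, add_zero, zero_add] at h2 h3
      have h2' := T.two
      refine hze ⟨?_, ?_⟩
      · have := (mul_eq_zero.mp h3).resolve_right hd0
        exact (mul_eq_zero.mp this).resolve_left (by
          rw [show (4 : F) = 2 * 2 by norm_num]; exact mul_ne_zero h2' h2')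
      · exact (mul_eq_zero.mp ((mul_eq_zero.mp h2).resolve_right hd0)).resolve_left h2'
    · rw [hx, map_add, map_smul, map_smul, hw, hwn, hwn]; simp
  -- solutions of `h r = r + x p`
  have hsolve : ∀ (r : V) (x : F), (h : Mat) *ᵥ r = r + x • p → ∃ k θ : F,
      C n (r - k • p) = (-2 * x) • a' ∧ C v (r - k • p) = x • a ∧ C μ (r - k • p) = θ • a' := by
    intro r x hr
    have e0 : (h : Mat) *ᵥ r - r = x • p := by rw [hr, add_sub_cancel_left]
    have en := hDn r
    have ev := hDv r
    have em := hDμ r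
    rw [e0, map_smul, hnp, smul_zero, eq_comm, smul_eq_zero] at en
    have hωn : ω (C n r) a' = 0 := (mul_eq_zero.mp (en.resolve_right ha'0)).resolve_left hc0
    obtain ⟨ξ, hξ⟩ := Submodule.mem_span_singleton.mp (T.dependent hA ha'0 hωn)
    rw [e0, map_smul, hCvp, hωn, ← hξ] at ev
    rw [e0, map_smul, ← ha, hωn, ← hξ] at em
    have ev' := congrArg (ω a) ev
    have em' := congrArg (fun y => ω y a') em
    have em'' := congrArg (ω a) em
    simp only [map_add, map_sub, map_smul, LinearMap.add_apply, LinearMap.sub_apply, LinearMap.smul_apply,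
      smul_eq_mul, T.alt, ← hd, mul_zero, zero_mul, add_zero, zero_add, sub_zero] at ev' em' em''
    have hωv : ω (C v r) a' = x * d := em'.symm
    have hξ' : ξ = -2 * x := by
      have h1 : vv * (ξ + 2 * x) * d = 0 := by
        linear_combination ev' + c * d * hωv + x * d * hcd
      have := (mul_eq_zero.mp ((mul_eq_zero.mp h1).resolve_right hd0)).resolve_left hv
      linear_combination this
    set η := ω a (C v r) / d with hη
    obtain ⟨θ', hθ⟩ : ∃ θ : F, C μ (r - (η / vv) • p) = θ • a' := by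
      obtain ⟨θ, hθ⟩ := Submodule.mem_span_singleton.mp (T.dependent hA ha'0 (x := C μ (r - (η / vv) • p)) (by
        have h2 := T.two
        rw [map_sub, map_smul, ← ha, map_sub, map_smul, LinearMap.sub_apply, LinearMap.smul_apply, smul_eq_mul, ← hd,
          hη]
        have key : c * ω (C μ r) a' * d + ω a (C v r) = 0 := by
          linear_combination -em'' - c * d * hωv - x * d * hcd + vv / 2 * d * hξ' - x * vv * d * (div_self h2)
        rw [hc] at key
        field_simp at key ⊢
        linear_combination -key))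
      exact ⟨θ, hθ.symm⟩
    refine ⟨η / vv, θ', ?_, ?_, hθ⟩
    · rw [map_sub, map_smul, hnp, smul_zero, sub_zero, ← hξ, hξ']
    · rw [map_sub, map_smul, hCvp, smul_smul, div_mul_cancel₀ _ hv]
      have h1 : ω a (d⁻¹ • a') = 1 := by rw [map_smul, smul_eq_mul, ← hd, inv_mul_cancel₀ hd0]
      have e := T.expand2 hA h1 (C v r)
      rw [map_smul, hωv, smul_eq_mul, T.ωswap a (C v r), smul_smul] at e
      rw [e, hη]
      have e2 : d⁻¹ * (x * d) = x := by field_simp
      rw [e2]
      match_scalars <;> field_simp <;> ring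
  obtain ⟨hpq, I, hI, hIv⟩ := hP
  set r₁ := (h : Mat) *ᵥ q - q with hr₁
  by_cases hplane : ∃ x : F, r₁ = x • p
  · -- the element keeps the plane
    obtain ⟨x, hx⟩ := hplane
    obtain ⟨k₀, θ, hqn, hqv, hqμ⟩ := hsolve q x (by rw [← hx, hr₁, add_sub_cancel])
    set q' := q - k₀ • p with hq'
    have hpq' : β p q' = 1 := by rw [hq', map_sub, map_smul, beta_self, smul_zero, sub_zero, hpq]
    have hIv' : ∀ y, (I : Mat) *ᵥ y = y - (2 : F) • proj p q' y := fun y => by
      rw [hIv, proj_apply, proj_apply, hq', map_sub, map_smul, smul_eq_mul]; module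
    have h3x : -(3 * (x * d)) = 1 := by
      rw [← hpq', hp, map_add, LinearMap.add_apply, T.beta_pu, T.beta_pu, hqn, hqv, map_smul, map_smul, smul_eq_mul,
        smul_eq_mul, ← hd, ha'a]
      ring
    have h3 : (3 : F) ≠ 0 := fun h0 => by rw [h0, zero_mul, neg_zero] at h3x; exact zero_ne_one h3x
    obtain ⟨k, hk0, hk⟩ : ∃ k : F, k ≠ 0 ∧ k * k ≠ d * θ * vv := by
      by_cases h1 : (1 : F) * 1 = d * θ * vv
      · refine ⟨2, T.two, fun h2 => h3 ?_⟩
        linear_combination h2 - h1
      · exact ⟨1, one_ne_zero, h1⟩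
    have hαα : ω (a + k • a') (d⁻¹ • a') = 1 := by
      rw [map_smul, map_add, map_smul, LinearMap.add_apply, LinearMap.smul_apply, T.alt, smul_zero, add_zero, ← hd,
        smul_eq_mul, inv_mul_cancel₀ hd0]
    have hQ := T.pl_image hA hI hv hαα
    have hIy : ∀ b, (I : Mat) *ᵥ pu b v =
        pu b v - (2 * (x * ω b a)) • p + (2 * (vv * ω b a')) • q' := fun b => by
      rw [hIv', proj_apply, T.beta_pu, T.beta_pu, hqv, hCvp, map_smul, map_smul, smul_eq_mul, smul_eq_mul]
      module
    set R := (-(3 * d * θ / 2) - k * k / (2 * vv)) • n + (2 * k / vv) • v + μ with hR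
    have hRR : s R R ≠ 0 := by
      have h2 := T.two
      have e : s R R = 3 * (k * k - d * θ * vv) / vv := by
        simp only [hR, map_add, map_smul, LinearMap.add_apply, LinearMap.smul_apply, smul_eq_mul, hnn, hnv, hnμ,
          hvn, hvμ, hμn, hμv, hμμ, ← hvv]
        field_simp
        ring
      rw [e]
      exact div_ne_zero (mul_ne_zero h3 (sub_ne_zero.mpr hk)) hv
    have hCR : ∀ y, C R y = (-(3 * d * θ / 2) - k * k / (2 * vv)) • C n y + (2 * k / vv) • C v y + C μ y := fun y => by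
      simp only [hR, map_add, map_smul, LinearMap.add_apply, LinearMap.smul_apply]
    have hx' : x = -1 / (3 * d) := by
      field_simp
      linear_combination -h3x
    refine T.sp_le_of_pair₃ (by omega) hq5 hQ hRR ?_ ?_
    · have h2 := T.two
      rw [hIy, hCR]
      simp only [map_add, map_sub, map_smul, LinearMap.add_apply, LinearMap.smul_apply, T.C_pu, hnp, hqn, hqv, hqμ,
        hCvp, ← ha, hvn, ← hvv, hvμ, smul_eq_mul, T.alt, ← hd, ha'a]
      match_scalars <;> rw [hx'] <;> field_simp <;> ring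
    · intro h0
      rw [map_smul, hIy, hCR] at h0
      have h1 := congrArg (fun y => ω y a') ((smul_eq_zero.mp h0).resolve_left (inv_ne_zero hv))
      simp only [map_add, map_sub, map_smul, map_zero, LinearMap.add_apply, LinearMap.sub_apply,
        LinearMap.smul_apply, LinearMap.zero_apply, T.C_pu, hnp, hqn, hqv, hqμ, hCvp, ← ha, hvn, ← hvv, hvμ,
        smul_eq_mul, T.alt, ← hd, ha'a] at h1
      field_simp at h1
      ring_nf at h1
      have hx0 : x ≠ 0 := fun h => zero_ne_one (α := F) (by rw [← h3x, h]; ring)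
      exact mul_ne_zero (mul_ne_zero (mul_ne_zero (pow_ne_zero 2 hd0) hv) hx0) T.two h1
  -- the chain of commutators
  have hpr₁ : β p r₁ = 0 := by
    rw [hr₁, map_sub, sub_eq_zero]
    conv_lhs => rw [← hphp]
    rw [hsp]
  set ε := β q r₁ with hε
  let U : V → Prop := fun r => β p r = 0 ∧ (∀ x : F, r ≠ x • p) ∧ ∃ e : F, spX p r 2 * spTrans p e ∈ M
  have hU₁ : U r₁ := by
    refine ⟨hpr₁, fun x hx => hplane ⟨x, hx⟩, 4 * ε, ?_⟩
    convert M.mul_mem hI (M.mul_mem (M.mul_mem hh hI) (M.inv_mem hh)) using 1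
    refine gl_ext fun y => ?_
    have e1 : (h * I * h⁻¹ : GL (Fin m ⊕ Fin m) F).val *ᵥ y = y - (2 : F) • proj p (q + r₁) y := by
      set y' := ((h⁻¹ : GL (Fin m ⊕ Fin m) F) : Mat) *ᵥ y with hy'
      have hhy : (h : Mat) *ᵥ y' = y := gl_mulVec_inv h y
      have hqr : q + r₁ = (h : Mat) *ᵥ q := by rw [hr₁, add_sub_cancel]
      have e1 : β y (q + r₁) = β y' q := by rw [← hhy, hqr, hsp]
      have e2 : β y p = β y' p := by
        conv_lhs => rw [← hhy, ← hphp]
        rw [hsp]
      rw [Units.val_mul, Units.val_mul, ← Matrix.mulVec_mulVec, ← Matrix.mulVec_mulVec, ← hy', hIv, proj_apply,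
        proj_apply, Matrix.mulVec_sub, hhy, e1, e2, Matrix.mulVec_smul, Matrix.mulVec_sub, Matrix.mulVec_smul,
        Matrix.mulVec_smul, hphp, hqr]
    rw [Units.val_mul, Units.val_mul, ← Matrix.mulVec_mulVec, ← Matrix.mulVec_mulVec, e1, hIv, spX_mulVec hpr₁,
      spTrans_mulVec, proj_apply, proj_apply]
    simp only [map_add, map_sub, map_smul, LinearMap.add_apply, LinearMap.sub_apply, LinearMap.smul_apply,
      smul_eq_mul, beta_self, beta_swap p q, hpq, hpr₁, beta_swap p r₁, beta_swap q r₁, ← hε]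
    match_scalars <;> ring
  have hstep : ∀ r, U r → Cfsg.spGL m F ≤ M ∨ (h : Mat) *ᵥ r = r ∨ U ((h : Mat) *ᵥ r - r) := by
    rintro r ⟨hr, -, e, hre⟩
    by_cases hfix : (h : Mat) *ᵥ r = r
    · exact Or.inr (Or.inl hfix)
    set r' := (h : Mat) *ᵥ r - r with hr'
    have hphr : β p ((h : Mat) *ᵥ r) = 0 := by
      conv_lhs => rw [← hphp]
      rw [hsp, hr]
    have hpr' : β p r' = 0 := by rw [hr', map_sub, hphr, hr, sub_zero]
    have h1 := M.mul_mem (M.mul_mem (M.mul_mem hh hre) (M.inv_mem hh)) (M.inv_mem hre)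
    rw [show h * (spX p r 2 * spTrans p e) * h⁻¹ = (h * spX p r 2 * h⁻¹) * (h * spTrans p e * h⁻¹) by group,
      conj_spX (T.sp hh), conj_spTrans (T.sp hh), hphp, show spX p ((h : Mat) *ᵥ r) 2 * spTrans p e *
        (spX p r 2 * spTrans p e)⁻¹ = spX p ((h : Mat) *ᵥ r) 2 * (spX p r 2)⁻¹ by group] at h1
    have hhr : (h : Mat) *ᵥ r = r + r' := by rw [hr', add_sub_cancel]
    have hsum : β p (r + r') = 0 := by rw [← hhr, hphr]
    have key : spX p r' 2 * spTrans p (-4 * β r r') = spX p ((h : Mat) *ᵥ r) 2 * (spX p r 2)⁻¹ := by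
      refine eq_mul_inv_iff_mul_eq.mpr (gl_ext fun y => ?_)
      rw [hhr]
      clear_value r'
      simp only [Units.val_mul, ← Matrix.mulVec_mulVec, spX_mulVec hr, spX_mulVec hpr', spX_mulVec hsum,
        spTrans_mulVec, map_add, map_smul, LinearMap.add_apply, LinearMap.smul_apply, smul_eq_mul, beta_self,
        beta_swap p r, beta_swap p r', hr, hpr']
      match_scalars <;> ring
    rw [← key] at h1
    by_cases hx : ∃ x : F, r' = x • p
    · obtain ⟨x, hx⟩ := hx
      refine Or.inl (core 0 (4 * x) (fun h0 => hfix ?_) ?_)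
      · have h4 : (4 : F) ≠ 0 := by rw [show (4 : F) = 2 * 2 by norm_num]; exact mul_ne_zero T.two T.two
        have := sub_eq_zero.mp (show (h : Mat) *ᵥ r - r = 0 by
          rw [← hr', hx, (mul_eq_zero.mp h0.2).resolve_left h4, zero_smul])
        exact this
      · convert h1 using 1
        have hrp : β r p = 0 := by rw [beta_swap p r, hr, neg_zero]
        refine gl_ext fun y => ?_
        simp only [hx, Units.val_mul, ← Matrix.mulVec_mulVec, spTrans_mulVec,
          spX_mulVec (show β p ((0 : F) • w) = 0 by simp), spX_mulVec (show β p (x • p) = 0 by simp [beta_self]),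
          map_smul, map_zero, LinearMap.smul_apply, smul_eq_mul, beta_self, hrp, zero_smul]
        simp only [spX_mulVec (map_zero (β p)), map_add, map_smul, map_zero, LinearMap.add_apply, LinearMap.smul_apply,
          smul_eq_mul, beta_self]
        match_scalars <;> ring
    · push Not at hx
      exact Or.inr (Or.inr ⟨hpr', hx, _, h1⟩)
  have hlast : ∀ r, U r → (h : Mat) *ᵥ r = r → Cfsg.spGL m F ≤ M := by
    rintro r ⟨-, hrp, e, hre⟩ hfix
    obtain ⟨k, θ, h1, h2, h3⟩ := hsolve r 0 (by rw [hfix, zero_smul, add_zero])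
    have hr : r = k • p + θ • w := by
      rw [← sub_eq_iff_eq_add']
      refine hext _ _ ?_ ?_ ?_
      · rw [h1, map_smul, hw, T.C_pu, hnn]; simp
      · rw [h2, map_smul, hw, hwn]; simp
      · rw [h3, map_smul, hw, T.C_pu, hnμ, one_smul]
    refine core θ (e + 4 * k) (fun h0 => hrp k (by rw [hr, h0.1, zero_smul, add_zero])) ?_
    convert hre using 1
    refine gl_ext fun y => ?_
    have hwp : β w p = 0 := by rw [beta_swap p w, hpw, neg_zero]
    simp only [hr, Units.val_mul, ← Matrix.mulVec_mulVec, spTrans_mulVec,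
      spX_mulVec (show β p (θ • w) = 0 by rw [map_smul, hpw, smul_zero]),
      spX_mulVec (show β p (k • p + θ • w) = 0 by rw [map_add, map_smul, map_smul, hpw, beta_self]; simp),
      map_add, map_smul, LinearMap.add_apply, LinearMap.smul_apply, smul_eq_mul, beta_self, hpw, hwp]
    match_scalars <;> ring
  -- the displacement is nilpotent
  have g1 : ∀ y, ω (C n ((h : Mat) *ᵥ y - y)) a' = 0 := fun y => by
    rw [hDn, map_smul, LinearMap.smul_apply, T.alt, smul_zero]
  have g2 : ∀ y, ω (C n y) a' = 0 → C n ((h : Mat) *ᵥ y - y) = 0 := fun y hy => by rw [hDn, hy]; simp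
  have g3 : ∀ y, C n y = 0 → C n ((h : Mat) *ᵥ y - y) = 0 ∧ ω (C v ((h : Mat) *ᵥ y - y)) a' = 0 := fun y hy =>
    ⟨g2 y (by rw [hy]; simp), by rw [hDv, hy]; simp [T.alt]⟩
  have g4 : ∀ y, C n y = 0 → ω (C v y) a' = 0 →
      C n ((h : Mat) *ᵥ y - y) = 0 ∧ C v ((h : Mat) *ᵥ y - y) = 0 := fun y hy hy' =>
    ⟨(g3 y hy).1, by rw [hDv, hy, hy']; simp⟩
  have g5 : ∀ y, C n y = 0 → C v y = 0 → C n ((h : Mat) *ᵥ y - y) = 0 ∧ C v ((h : Mat) *ᵥ y - y) = 0 ∧
      ω (C μ ((h : Mat) *ᵥ y - y)) a' = 0 := fun y hy hy' =>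
    ⟨(g3 y hy).1, by rw [hDv, hy, hy']; simp, by rw [hDμ, hy, hy']; simp [T.alt]⟩
  have g6 : ∀ y, C n y = 0 → C v y = 0 → ω (C μ y) a' = 0 → (h : Mat) *ᵥ y = y := fun y hy hy' hy'' => by
    rw [← sub_eq_zero]
    refine hext _ _ ?_ ?_ ?_
    · rw [hDn, hy]; simp
    · rw [hDv, hy, hy']; simp
    · rw [hDμ, hy, hy', hy'']; simp
  have next' : ∀ r, U r → (U ((h : Mat) *ᵥ r - r) → Cfsg.spGL m F ≤ M) → Cfsg.spGL m F ≤ M := fun r hr hnext =>
    (hstep r hr).elim id fun h' => h'.elim (hlast r hr) hnext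
  refine next' r₁ hU₁ fun h2 => next' _ h2 fun h3 => next' _ h3 fun h4 => next' _ h4 fun h5 => hlast _ h5 ?_
  set r₂ := (h : Mat) *ᵥ r₁ - r₁
  have c2 : C n r₂ = 0 := g2 _ (g1 q)
  obtain ⟨c3, c3'⟩ := g3 _ c2
  obtain ⟨c4, c4'⟩ := g4 _ c3 c3'
  obtain ⟨c5, c5', c5''⟩ := g5 _ c4 c4'
  exact g6 _ c5 c5' c5''

/-- Otherwise all members of the plane have one kernel. -/
theorem noKer_or₃ (T : TS M ω s pu C) (hA : finrank F A = 2) (hB : finrank F B = 3) (hq5 : 5 ≤ Fintype.card F)
    {p q : V} (hP : Pl M p q)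
    (hpure : ¬ ∃ v : B, v ≠ 0 ∧ ∀ a, pu a v ∈ Submodule.span F ({p, q} : Set V)) :
    Cfsg.spGL m F ≤ M ∨ NoKer C pu p q := by
  classical
  by_cases hn : ∀ (c d : F) (k : B), ¬ (c = 0 ∧ d = 0) → C k (c • p + d • q) = 0 → C k p = 0 ∧ C k q = 0
  · exact Or.inr ⟨hn, hpure⟩
  push Not at hn
  obtain ⟨c, d, k, hcd, hk, hk'⟩ := hn
  -- a basis starting with the vector
  obtain ⟨c', d', hdet⟩ : ∃ c' d' : F, c * d' - d * c' = 1 := by
    by_cases hc : c = 0
    · have hd : d ≠ 0 := hcd hc
      exact ⟨-d⁻¹, 0, by field_simp; ring⟩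
    · exact ⟨0, c⁻¹, by field_simp; ring⟩
  set p' := c • p + d • q with hp'
  set q' := c' • p + d' • q with hq'
  obtain ⟨hpq, I, hI, hIv⟩ := hP
  have hP' : Pl M p' q' := by
    refine ⟨?_, I, hI, fun v => ?_⟩
    · simp only [hp', hq', map_add, map_smul, LinearMap.add_apply, LinearMap.smul_apply, smul_eq_mul, beta_self,
        beta_swap p q, hpq]
      linear_combination hdet
    · rw [hIv, proj_apply, proj_apply, hp', hq']
      simp only [map_add, map_smul, smul_eq_mul]
      match_scalars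
      · ring
      · linear_combination (2 * β v q) * hdet
      · linear_combination (-(2 * β v p)) * hdet
  have hkq : C k q' ≠ 0 := by
    intro h
    refine absurd (hk' ?_) (not_not_intro ?_)
    · have e : p = d' • p' - d • q' := by
        rw [hp', hq']; match_scalars
        · linear_combination -hdet
        · ring
      rw [e, map_sub, map_smul, map_smul, hk, h, smul_zero, smul_zero, sub_zero]
    · have e : q = c • q' - c' • p' := by
        rw [hp', hq']; match_scalars
        · linear_combination -hdet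
        · ring
      rw [e, map_sub, map_smul, map_smul, hk, h, smul_zero, smul_zero, sub_zero]
  refine Or.inl ?_
  by_cases hns : ∃ u ∈ LinearMap.ker (C.flip p'), s u u ≠ 0
  · obtain ⟨u, hu, huq, hu0⟩ := exists_nonsingular_notMem s T.sym T.two (LinearMap.ker (C.flip p'))
      (LinearMap.ker (C.flip q')) hns fun hle => hkq (hle (show k ∈ LinearMap.ker (C.flip p') from hk))
    exact T.sp_le_of_pair₃ (by omega) hq5 hP' hu0 hu huq
  · push Not at hns
    have hk0 : k ≠ 0 := fun h => hkq (by rw [h, map_zero, LinearMap.zero_apply])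
    refine T.sp_le_of_singular_kernel hA hB hq5 hP' hk0 (hns k hk) hk fun u hu => ?_
    have h1 := two_mul_finrank_le s T.sym T.snd (K := LinearMap.ker (C.flip p'))
      fun x hx y hy => apply_eq_zero_of_singular s T.sym T.two hns hx hy
    have hkK : k ∈ LinearMap.ker (C.flip p') := hk
    obtain ⟨e, he⟩ := finrank_le_one_iff.mp (show finrank F (LinearMap.ker (C.flip p')) ≤ 1 by omega)
    obtain ⟨e₁, he₁⟩ := he ⟨k, hkK⟩
    obtain ⟨e₂, he₂⟩ := he ⟨u, hu⟩
    have h₁ : e₁ • (e : B) = k := congrArg Subtype.val he₁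
    have h₂ : e₂ • (e : B) = u := congrArg Subtype.val he₂
    have he₁0 : e₁ ≠ 0 := fun h => hk0 (by rw [← h₁, h, zero_smul])
    exact ⟨e₂ / e₁, by rw [← h₁, smul_smul, div_mul_cancel₀ _ he₁0, h₂]⟩

end Cfsg.Agent.H25.GeoLists.TS
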