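import Cfsg.Agent.H25.GeoLists.SpTensor.Exceptional
import Cfsg.Agent.H25.GeoLists.SpTensor.RankThree.Pair

/-!
A plane all of whose members have one kernel leads to a root element, for a three dimensional second factor.
-/

set_option autoImplicit false
set_option linter.unusedSectionVars false

namespace Cfsg.Agent.H25.GeoLists.TS

open scoped Matrix
open Cfsg.Agent.H98 Module

attribute [-simp] Cfsg.Agent.H2.sympBilin_apply

variable {m : ℕ} {F : Type*} [Field F] {A B : Type*} [AddCommGroup A] [Module F A] [AddCommGroup B] [Module F B]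
variable {M : Subgroup (GL (Fin m ⊕ Fin m) F)} {ω : A →ₗ[F] A →ₗ[F] F} {s : B →ₗ[F] B →ₗ[F] F}
  {pu : A →ₗ[F] B →ₗ[F] (Fin m ⊕ Fin m → F)} {C : B →ₗ[F] (Fin m ⊕ Fin m → F) →ₗ[F] A}
  [Fintype F] [FiniteDimensional F A] [FiniteDimensional F B]

local notation "V" => (Fin m ⊕ Fin m → F)
local notation "Mat" => Matrix (Fin m ⊕ Fin m) (Fin m ⊕ Fin m) F
local notation "β" => Cfsg.Agent.H2.sympBilin m F

/-- An involution exchanging two basic planes gives everything. -/
theorem sp_le_of_swap (T : TS M ω s pu C) (hA : finrank F A = 2) (hB : finrank F B = 3) (hq5 : 5 ≤ Fintype.card F)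
    {p q : V} (hP : Pl M p q) {I : GL (Fin m ⊕ Fin m) F} (hI : I ∈ M)
    (hIv : ∀ v, (I : Mat) *ᵥ v = v - (2 : F) • proj p q v) (hn : NoKer C pu p q) {k₀ : B} (hk₀ : k₀ ∈ plKer C p q)
    (hk₀0 : s k₀ k₀ ≠ 0) {t : B} (ht : t ∈ LinearMap.BilinForm.orthogonal s (plKer C p q)) (ht0 : s t t ≠ 0)
    (htK : t ∉ plKer C p q) (htκ : s t t = -s k₀ k₀) (hc : ∀ a, C t ((I : Mat) *ᵥ pu a t) = 0) :
    Cfsg.spGL m F ≤ M := by
  classical
  haveI : Nontrivial A := Module.nontrivial_of_finrank_pos (R := F) (by omega)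
  haveI : Finite A := Module.finite_of_finite F
  obtain ⟨a₀, ha₀⟩ := exists_ne (0 : A)
  obtain ⟨a₁, ha01⟩ := T.exists_one ha₀
  set κ := s k₀ k₀
  have hkt : s k₀ t = 0 := ht k₀ hk₀
  have htk : s t k₀ = 0 := by rw [T.sym]; exact hkt
  obtain ⟨n', hn', hn'0⟩ := exists_perp s T.sym T.two T.snd ![k₀, t] (fun i => by fin_cases i <;> simpa)
    (fun i j hij => by fin_cases i <;> fin_cases j <;> simp_all) (by omega)
  have hn'k : s n' k₀ = 0 := by simpa using hn' 0
  have hn't : s n' t = 0 := by simpa using hn' 1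
  have hkn' : s k₀ n' = 0 := by rw [T.sym]; exact hn'k
  have htn' : s t n' = 0 := by rw [T.sym]; exact hn't
  set ν := s n' n'
  have hli : LinearIndependent F ![k₀, t, n'] := by
    rw [Fintype.linearIndependent_iff]
    intro g hg
    simp only [Fin.sum_univ_three, Matrix.cons_val_zero, Matrix.cons_val_one, Matrix.cons_val_two,
      Matrix.head_cons, Matrix.tail_cons] at hg
    have e1 := congrArg (s k₀) hg
    have e2 := congrArg (s t) hg
    have e3 := congrArg (s n') hg
    simp [hkt, htk, hkn', hn'k, htn', hn't, hk₀0, ht0, hn'0, κ] at e1 e2 e3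
    intro i
    fin_cases i
    · exact e1
    · exact e2
    · exact e3.resolve_right hn'0
  have hext : ∀ x y : V, C k₀ x = C k₀ y → C t x = C t y → C n' x = C n' y → x = y := fun x y h1 h2 h3 =>
    T.eq_of_C fun u => by
      obtain ⟨c, rfl⟩ := (Submodule.mem_span_range_iff_exists_fun F).mp
        (show u ∈ Submodule.span F (Set.range ![k₀, t, n']) from
          (hli.span_eq_top_of_card_eq_finrank (by simp [hB])) ▸ trivial)
      simp only [Fin.sum_univ_three, Matrix.cons_val_zero, Matrix.cons_val_one, Matrix.cons_val_two,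
        Matrix.head_cons, Matrix.tail_cons, map_add, map_smul, LinearMap.add_apply, LinearMap.smul_apply, h1, h2, h3]
  obtain ⟨hkp, hkq⟩ := mem_plKer.mp hk₀
  have hIk : ∀ a, (I : Mat) *ᵥ pu a k₀ = pu a k₀ := fun a => by
    rw [hIv, T.proj_eq_zero hkp hkq, smul_zero, sub_zero]
  have hinv : ∀ y, (I : Mat) *ᵥ ((I : Mat) *ᵥ y) = y := fun y => by
    rw [hIv ((I : Mat) *ᵥ y), hIv y, map_sub, map_smul, proj_plane hP.1 (proj_mem p q y)]
    module
  set g : A →ₗ[F] A := ν⁻¹ • (C n').comp ((Matrix.mulVecLin (I : Mat)).comp (pu.flip t)) with hg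
  have hIt : ∀ a, (I : Mat) *ᵥ pu a t = pu (g a) n' := fun a => hext _ _
    (by rw [hIv, map_sub, map_smul, proj_apply, map_sub, map_smul, map_smul, hkp, hkq, T.C_pu, T.C_pu, htk, hn'k]
        simp)
    (by rw [hc, T.C_pu, hn't, zero_smul])
    (by rw [T.C_pu, hg]
        simp only [LinearMap.smul_apply, LinearMap.comp_apply, LinearMap.flip_apply, Matrix.mulVecLin_apply]
        rw [smul_inv_smul₀ hn'0])
  have hIn : ∀ a, (I : Mat) *ᵥ pu (g a) n' = pu a t := fun a => by rw [← hIt, hinv]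
  have hnscal : ¬ ∃ e : F, ∀ a, g a = e • a := by
    rintro ⟨e, he⟩
    refine T.not_pure_image hn htK (σ := e • n') fun a => ?_
    rw [← hIv, hIt, he, map_smul, map_smul, LinearMap.smul_apply]
  obtain ⟨l, hl0, hl1, hl2⟩ : ∃ l : F, l ≠ 0 ∧ l ≠ 1 ∧ l ≠ -1 := by
    obtain ⟨l, hl⟩ : ∃ l : F, l ∉ ({0, 1, -1} : Finset F) := by
      by_contra hall
      push Not at hall
      have := Finset.card_le_card (fun z _ => hall z : (Finset.univ : Finset F) ⊆ {0, 1, -1})
      have := Finset.card_le_three (a := (0 : F)) (b := 1) (c := -1)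
      rw [Finset.card_univ] at *
      omega
    simp only [Finset.mem_insert, Finset.mem_singleton, not_or] at hl
    exact ⟨l, hl⟩
  have hl11 : l * l - 1 ≠ 0 := by
    rw [show l * l - 1 = (l - 1) * (l - -1) by ring]
    exact mul_ne_zero (sub_ne_zero.mpr hl1) (sub_ne_zero.mpr hl2)
  set w := t + l • k₀ with hw
  have hww : s w w ≠ 0 := by
    have e : s w w = κ * (l * l - 1) := by
      simp only [hw, map_add, map_smul, LinearMap.add_apply, LinearMap.smul_apply, smul_eq_mul, hkt, htk, htκ, κ]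
      ring
    rw [e]; exact mul_ne_zero hk₀0 hl11
  by_cases heig : ∃ (a : A) (e : F), a ≠ 0 ∧ g a = e • a
  · obtain ⟨a, e, ha, hae⟩ := heig
    obtain ⟨a', haa⟩ := T.exists_one ha
    have hQ := T.pl_image hA hI hww haa
    obtain ⟨μ, hμ⟩ : ∃ μ : F, s (((l * κ) • n' - (e * ν) • k₀) + μ • t) (((l * κ) • n' - (e * ν) • k₀) + μ • t) ≠ 0 := by
      by_cases h0 : s ((l * κ) • n' - (e * ν) • k₀) ((l * κ) • n' - (e * ν) • k₀) = 0
      · refine ⟨1, ?_⟩
        simp only [map_add, map_sub, map_smul, LinearMap.add_apply, LinearMap.sub_apply, LinearMap.smul_apply,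
          smul_eq_mul, hn't, htn', hkt, htk] at h0 ⊢
        intro h1
        exact ht0 (by linear_combination h1 - h0)
      · exact ⟨0, by rwa [zero_smul, add_zero]⟩
    have hval : ∀ x, C (((l * κ) • n' - (e * ν) • k₀) + μ • t) ((I : Mat) *ᵥ pu x w) =
        (l * κ * ν) • (g x - e • x) := fun x => by
      rw [hw, map_add (pu x), map_smul (pu x), Matrix.mulVec_add, Matrix.mulVec_smul, hIt, hIk]
      simp only [map_add, map_sub, map_smul, LinearMap.add_apply, LinearMap.sub_apply, LinearMap.smul_apply, T.C_pu,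
        hn'k, hn't, hkn', hkt, ν, κ]
      module
    refine T.sp_le_of_pair₃ (by omega) hq5 hQ hμ (by rw [hval, hae, sub_self, smul_zero]) fun h0 => ?_
    rw [map_smul, hval, smul_eq_zero, or_iff_right (inv_ne_zero hww), smul_eq_zero,
      or_iff_right (mul_ne_zero (mul_ne_zero hl0 hk₀0) hn'0), sub_eq_zero] at h0
    refine hnscal ⟨e, fun x => ?_⟩
    rw [T.expand2 hA haa x]
    simp only [map_sub, map_smul, hae, h0]
    module
  push Not at heig
  -- an anisotropic operator
  have hginj : Function.Injective g := (injective_iff_map_eq_zero g).mpr fun x hx => by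
    by_contra h
    exact heig x 0 h (by rw [hx, zero_smul])
  have hgsur : Function.Surjective g := Finite.surjective_of_injective hginj
  set b := a₀
  set f := ω b (g b) with hf
  have hf0 : f ≠ 0 := fun h => by
    obtain ⟨e, he⟩ := Submodule.mem_span_singleton.mp (T.dependent hA ha₀ (show ω (g b) b = 0 by
      rw [T.ωswap b (g b), ← hf, h, neg_zero]))
    exact heig b e ha₀ he.symm
  have hb1 : ω b (f⁻¹ • g b) = 1 := by rw [map_smul, smul_eq_mul, ← hf, inv_mul_cancel₀ hf0]
  have hexp : ∀ x, x = (ω x (g b) / f) • b + (ω b x / f) • g b := fun x => by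
    conv_lhs => rw [T.expand2 hA hb1 x]
    rw [map_smul, smul_eq_mul, T.ωswap b x, smul_smul]
    match_scalars <;> field_simp <;> ring
  obtain ⟨P, R, hgg⟩ : ∃ P R : F, g (g b) = P • b + R • g b := ⟨_, _, hexp _⟩
  have hP0 : P ≠ 0 := fun h => heig (g b) R (fun h' => hf0 (by rw [hf, h', map_zero]))
    (by rw [hgg, h, zero_smul, zero_add])
  have hdisc : -P - R * R / 4 ≠ 0 := fun h => by
    have h2 := T.two
    have h4 : (4 : F) ≠ 0 := by rw [show (4 : F) = 2 * 2 by norm_num]; exact mul_ne_zero h2 h2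
    refine heig (g b - (R / 2) • b) (R / 2) (fun h' => hf0 ?_) ?_
    · rw [hf, sub_eq_zero.mp h', map_smul, T.alt, smul_zero]
    · rw [map_sub, map_smul, hgg, show P = -(R * R / 4) by linear_combination -h]
      match_scalars <;> field_simp <;> ring
  obtain ⟨X, y, hXy⟩ := exists_binary_value (one_ne_zero (α := F)) hdisc T.two l⁻¹
  set c := (X - R * y / 2) • b + y • g b with hc'
  have hfc : l * ω c (g c) = f := by
    have h2 := T.two
    have h4 : (4 : F) ≠ 0 := by rw [show (4 : F) = 2 * 2 by norm_num]; exact mul_ne_zero h2 h2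
    have e : ω c (g c) = l⁻¹ * f := by
      rw [← hXy, hc', map_add g, map_smul g, map_smul g, hgg]
      simp only [map_add, map_smul, LinearMap.add_apply, LinearMap.smul_apply, smul_eq_mul, T.alt,
        T.ωswap b (g b), ← hf]
      field_simp
      ring
    rw [e, ← mul_assoc, mul_inv_cancel₀ hl0, one_mul]
  have hc0 : c ≠ 0 := fun h => hf0 (by rw [← hfc, h, map_zero, LinearMap.zero_apply, mul_zero])
  let h : A →ₗ[F] A := f⁻¹ • ((ω.flip (g b)).smulRight c + l • ((ω b).smulRight (g c)))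
  have hh : ∀ x, h x = (ω x (g b) / f) • c + (l * ω b x / f) • g c := fun x => by
    simp only [h, LinearMap.smul_apply, LinearMap.add_apply, LinearMap.smulRight_apply, LinearMap.flip_apply]
    match_scalars <;> ring
  have hhb : h b = c := by rw [hh, ← hf, T.alt, div_self hf0]; simp
  have hhgb : h (g b) = l • g c := by rw [hh, T.alt, ← hf]; simp [hf0]
  have hhω : ∀ x y, ω (h x) (h y) = ω x y := fun x y => by
    conv_rhs => rw [hexp x, hexp y]
    rw [hh, hh]
    simp only [map_add, map_smul, LinearMap.add_apply, LinearMap.smul_apply, smul_eq_mul, T.alt,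
      T.ωswap c (g c), T.ωswap b (g b), ← hf]
    rw [show ω c (g c) = f / l by rw [← hfc, mul_div_cancel_left₀ _ hl0]]
    field_simp
    ring
  have hhinj : Function.Injective h := (injective_iff_map_eq_zero h).mpr fun x hx => T.ωnd x fun y => by
    rw [← hhω, hx, map_zero, LinearMap.zero_apply]
  obtain ⟨H, hH, hHe⟩ := T.isom h LinearMap.id hhω (fun _ _ => rfl)
  have hHi : ∀ x z, ((H⁻¹ : GL (Fin m ⊕ Fin m) F) : Mat) *ᵥ pu (h x) z = pu x z := fun x z => by
    conv_lhs => rw [show pu (h x) z = (H : Mat) *ᵥ pu x z by rw [hHe, LinearMap.id_apply]]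
    rw [gl_inv_mulVec]
  set Y := I * H * I * H⁻¹ with hY
  have hYM : Y ∈ M := M.mul_mem (M.mul_mem (M.mul_mem hI hH) hI) (M.inv_mem hH)
  have hYk : ∀ x, (Y : Mat) *ᵥ pu (h x) k₀ = pu (h x) k₀ := fun x => by
    rw [hY, Units.val_mul, Units.val_mul, Units.val_mul, ← Matrix.mulVec_mulVec, ← Matrix.mulVec_mulVec,
      ← Matrix.mulVec_mulVec, hHi, hIk, hHe, LinearMap.id_apply, hIk]
  have hYt : ∀ x z, g z = h (g x) → (Y : Mat) *ᵥ pu (h x) t = pu z t := fun x z hz => by
    rw [hY, Units.val_mul, Units.val_mul, Units.val_mul, ← Matrix.mulVec_mulVec, ← Matrix.mulVec_mulVec,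
      ← Matrix.mulVec_mulVec, hHi, hIt, hHe, LinearMap.id_apply, ← hz, hIn]
  obtain ⟨c', hcc⟩ := T.exists_one hc0
  obtain ⟨x', rfl⟩ := Finite.surjective_of_injective hhinj c'
  obtain ⟨z', hz'⟩ := hgsur (h (g x'))
  have hQ := T.pl_image hA hYM hww hcc
  have hY1 : (Y : Mat) *ᵥ pu c w = pu c (l • t) + pu c (l • k₀) := by
    rw [hw, map_add, map_smul, Matrix.mulVec_add, Matrix.mulVec_smul, ← hhb, hYk,
      hYt b (l • c) (by rw [map_smul, hhgb]), hhb, map_smul, map_smul, LinearMap.smul_apply]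
  have hY2 : (Y : Mat) *ᵥ pu (h x') w = pu z' t + pu (h x') (l • k₀) := by
    rw [hw, map_add, map_smul, Matrix.mulVec_add, Matrix.mulVec_smul, hYk, hYt x' z' hz']
  obtain ⟨μ, hμ⟩ : ∃ μ : F, s ((κ • t - s t t • k₀) + μ • n') ((κ • t - s t t • k₀) + μ • n') ≠ 0 := by
    by_cases h0 : s (κ • t - s t t • k₀) (κ • t - s t t • k₀) = 0
    · refine ⟨1, ?_⟩
      simp only [map_add, map_sub, map_smul, LinearMap.add_apply, LinearMap.sub_apply, LinearMap.smul_apply,
        smul_eq_mul, hn't, htn', hn'k, hkn'] at h0 ⊢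
      intro h1
      exact hn'0 (by linear_combination h1 - h0)
    · exact ⟨0, by rwa [zero_smul, add_zero]⟩
  refine T.sp_le_of_pair₃ (by omega) hq5 hQ hμ ?_ fun h0 => ?_
  · rw [hY1]
    simp only [map_add, map_sub, map_smul, LinearMap.add_apply, LinearMap.sub_apply, LinearMap.smul_apply, T.C_pu,
      hn't, htn', hn'k, hkn', hkt, htk, κ]
    module
  · rw [map_smul, smul_eq_zero, or_iff_right (inv_ne_zero hww), hY2] at h0
    simp only [map_add, map_sub, map_smul, LinearMap.add_apply, LinearMap.sub_apply, LinearMap.smul_apply, T.C_pu,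
      hn't, htn', hn'k, hkn', hkt, htk] at h0
    have h1 : z' = l • h x' := by
      rw [← sub_eq_zero]
      refine (smul_eq_zero.mp (?_ : (κ * s t t) • (z' - l • h x') = 0)).resolve_left (mul_ne_zero hk₀0 ht0)
      rw [← h0]
      simp only [κ]
      module
    have hD : ∀ u v, ω (g u) (g v) = (-P) * ω u v := fun u v => by
      conv_lhs => rw [hexp u, hexp v]
      conv_rhs => rw [hexp u, hexp v]
      simp only [map_add, map_smul, hgg, LinearMap.add_apply, LinearMap.smul_apply, smul_eq_mul, T.alt,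
        T.ωswap b (g b), ← hf]
      ring
    have h3 : ω (l • g c) (g z') = (-P) * ω b x' := by rw [hz', ← hhgb, hhω, hD]
    rw [map_smul, LinearMap.smul_apply, hD, h1, map_smul, smul_eq_mul, smul_eq_mul, hcc,
      show ω b x' = 1 by rw [← hhω, hhb, hcc]] at h3
    exact mul_ne_zero (neg_ne_zero.mpr hP0) hl11 (by linear_combination h3)

/-- The degenerate case. -/
theorem sp_le_of_degenerate₃ (T : TS M ω s pu C) (hA : finrank F A = 2) (hB : finrank F B = 3)
    (hq5 : 5 ≤ Fintype.card F) {p q : V}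
    (hP : Pl M p q) (hn : NoKer C pu p q) {r₀ : B} (hr : r₀ ≠ 0) (hrK : r₀ ∈ plKer C p q)
    (hrad : ∀ k ∈ plKer C p q, s r₀ k = 0) : Cfsg.spGL m F ≤ M := by
  classical
  set K := plKer C p q with hKdef
  set S := LinearMap.BilinForm.orthogonal s K with hSdef
  obtain ⟨hpq, I, hI, hIv⟩ := hP
  haveI : Nontrivial A := Module.nontrivial_of_finrank_pos (R := F) (by omega)
  obtain ⟨a₀, ha₀⟩ := exists_ne (0 : A)
  obtain ⟨a₁, ha01⟩ := T.exists_one ha₀
  have hS2 : finrank F S ≤ 2 := by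
    rw [hSdef, LinearMap.BilinForm.finrank_orthogonal T.snd']
    have : finrank F B ≤ finrank F K + 2 := T.finrank_plKer hA hn
    have := Submodule.finrank_le K
    omega
  have hrS : r₀ ∈ S := fun k hk => by
    show s k r₀ = 0
    rw [T.sym]; exact hrad k hk
  -- a non-singular vector over the kernel
  obtain ⟨t, ht, ht0⟩ : ∃ t ∈ S, s t t ≠ 0 := by
    by_contra hc
    push Not at hc
    obtain ⟨σ₁, h1, σ₂, h2, ep⟩ := T.mem_tensor hA K (v := p) (fun k hk => (mem_plKer.mp hk).1) ha01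
    obtain ⟨τ₁, h3, τ₂, h4, eq'⟩ := T.mem_tensor hA K (v := q) (fun k hk => (mem_plKer.mp hk).2) ha01
    have hz := fun u hu v hv => apply_eq_zero_of_singular s T.sym T.two hc (u := u) (v := v) hu hv
    rw [ep, eq'] at hpq
    simp only [map_add, LinearMap.add_apply, T.form, hz _ h1 _ h3, hz _ h1 _ h4, hz _ h2 _ h3, hz _ h2 _ h4,
      mul_zero, add_zero] at hpq
    exact zero_ne_one hpq
  have htr : s t r₀ = 0 := by
    by_contra hne
    -- the radical vector lies in the kernel, which is orthogonal to `t`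
    exact hne (by rw [T.sym]; exact ht r₀ hrK)
  have htK : t ∉ K := fun h => ht0 (ht t h)
  have hrr : s r₀ r₀ = 0 := hrad r₀ hrK
  have hSspan : ∀ σ ∈ S, ∃ e f : F, σ = e • t + f • r₀ := by
    have hli : LinearIndependent F ![(⟨t, ht⟩ : S), ⟨r₀, hrS⟩] := by
      rw [LinearIndependent.pair_iff]
      intro c d h
      have h' : c • t + d • r₀ = 0 := congrArg Subtype.val h
      have h1 := congrArg (s t) h'
      simp [htr, ht0] at h1
      subst h1
      simp [hr] at h'
      exact ⟨rfl, h'⟩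
    have hc : finrank F S = 2 := le_antisymm hS2 (by simpa using hli.fintype_card_le_finrank)
    intro σ hσ
    obtain ⟨c, hc'⟩ := (Submodule.mem_span_range_iff_exists_fun F).mp
      (show (⟨σ, hσ⟩ : S) ∈ Submodule.span F (Set.range ![(⟨t, ht⟩ : S), ⟨r₀, hrS⟩]) from
        (hli.span_eq_top_of_card_eq_finrank (by simp [hc])) ▸ trivial)
    exact ⟨c 0, c 1, by simpa [Fin.sum_univ_two] using (congrArg Subtype.val hc').symm⟩
  have hdec : ∀ v, (∀ k ∈ K, C k v = 0) → ∃ α ρ : A, v = pu α t + pu ρ r₀ := by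
    intro v hv
    obtain ⟨σ₁, h1, σ₂, h2, e⟩ := T.mem_tensor hA K hv ha01
    obtain ⟨e₁, f₁, rfl⟩ := hSspan σ₁ h1
    obtain ⟨e₂, f₂, rfl⟩ := hSspan σ₂ h2
    refine ⟨e₁ • a₀ + e₂ • a₁, f₁ • a₀ + f₂ • a₁, ?_⟩
    rw [e]
    simp only [map_add, map_smul, LinearMap.add_apply, LinearMap.smul_apply]
    module
  obtain ⟨αp, ρp, ep⟩ := hdec p fun k hk => (mem_plKer.mp hk).1
  obtain ⟨αq, ρq, eq'⟩ := hdec q fun k hk => (mem_plKer.mp hk).2
  set n := s t t with hndef
  have hrt : s r₀ t = 0 := by rw [T.sym]; exact htr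
  have hαα : ω αp αq * n = 1 := by
    conv_rhs => rw [← hpq, ep, eq']
    simp only [map_add, LinearMap.add_apply, T.form, htr, hrt, hrr, mul_zero, add_zero, hndef]
  let ψ : A →ₗ[F] A := n • ((ω.flip αq).smulRight ρp - (ω.flip αp).smulRight ρq)
  have hαq : ω αp αq ≠ 0 := fun h => by rw [h, zero_mul] at hαα; exact zero_ne_one hαα
  have hplane : ∀ a, pu a t + pu (ψ a) r₀ ∈ Submodule.span F ({p, q} : Set V) := by
    intro a
    refine Submodule.mem_span_pair.mpr ⟨n * ω a αq, -(n * ω a αp), ?_⟩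
    have he : a = (n * ω a αq) • αp + (-(n * ω a αp)) • αq := by
      have h1 : ω αp (n • αq) = 1 := by rw [map_smul, smul_eq_mul, mul_comm]; exact hαα
      conv_lhs => rw [T.expand2 hA h1 a]
      rw [map_smul, smul_eq_mul]
      module
    conv_rhs => rw [he]
    rw [ep, eq']
    simp only [map_add, map_smul, map_sub, map_neg, LinearMap.add_apply, LinearMap.smul_apply, LinearMap.sub_apply,
      LinearMap.neg_apply, ψ, LinearMap.smulRight_apply, LinearMap.flip_apply, smul_eq_mul, T.alt, T.ωswap αp αq]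
    match_scalars
    all_goals first
      | linear_combination (-(n * ω a αq)) * hαα
      | linear_combination (n * ω a αp) * hαα
      | ring1
  have hψ : ¬ ∃ c : F, ∀ a, ψ a = c • a := by
    rintro ⟨c, hc⟩
    refine hn.2 ⟨t + c • r₀, fun h => htK ?_, fun a => ?_⟩
    · rw [add_eq_zero_iff_eq_neg] at h
      rw [h]
      exact K.neg_mem (K.smul_mem c hrK)
    · rw [map_add, map_smul, ← LinearMap.smul_apply, ← map_smul, ← hc a]
      exact hplane a
  -- the unipotent elements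
  let E : GL (Fin m ⊕ Fin m) F → (A →ₗ[F] A) → Prop := fun h N =>
    (∀ b, (h : Mat) *ᵥ pu b r₀ = pu b r₀) ∧ ∀ a, (h : Mat) *ᵥ pu a t = pu a t + pu (N a) r₀
  have hEmul : ∀ h h' N N', E h N → E h' N' → E (h * h') (N + N') := by
    rintro h h' N N' ⟨e1, e2⟩ ⟨e1', e2'⟩
    refine ⟨fun b => ?_, fun a => ?_⟩
    · rw [Units.val_mul, ← Matrix.mulVec_mulVec, e1', e1]
    · rw [Units.val_mul, ← Matrix.mulVec_mulVec, e2', Matrix.mulVec_add, e2, e1, LinearMap.add_apply, map_add,
        LinearMap.add_apply, add_assoc]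
  have hEinv : ∀ h N, E h N → E h⁻¹ (-N) := by
    rintro h N ⟨e1, e2⟩
    refine ⟨fun b => ?_, fun a => ?_⟩
    · conv_lhs => rw [← e1 b, gl_inv_mulVec]
    · have := congrArg (((h⁻¹ : GL (Fin m ⊕ Fin m) F) : Mat) *ᵥ ·) (e2 (a))
      simp only [gl_inv_mulVec, Matrix.mulVec_add] at this
      have hb : ((h⁻¹ : GL (Fin m ⊕ Fin m) F) : Mat) *ᵥ pu (N a) r₀ = pu (N a) r₀ := by
        conv_lhs => rw [← e1 (N a), gl_inv_mulVec]
      rw [hb] at this
      rw [LinearMap.neg_apply, map_neg, LinearMap.neg_apply, ← sub_eq_add_neg, eq_sub_iff_add_eq]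
      exact this.symm
  obtain ⟨z, hz, hzv⟩ := T.exists_z ht0
  have hU : E (I * z) ((2 : F) • ψ) := by
    obtain ⟨hrp, hrq⟩ := mem_plKer.mp hrK
    have hIr : ∀ b, (I : Mat) *ᵥ pu b r₀ = pu b r₀ := fun b => by
      rw [hIv, T.proj_eq_zero hrp hrq, smul_zero, sub_zero]
    refine ⟨fun b => ?_, fun a => ?_⟩
    · rw [Units.val_mul, ← Matrix.mulVec_mulVec, hzv, T.C_pu, hrt, zero_smul, map_zero, LinearMap.zero_apply,
        smul_zero, sub_zero, hIr]
    · have hx := hIv (pu a t + pu (ψ a) r₀)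
      rw [proj_plane hpq (hplane a), Matrix.mulVec_add, hIr] at hx
      have hIat : (I : Mat) *ᵥ pu a t = -(pu a t) - (2 : F) • pu (ψ a) r₀ := by
        rw [← eq_sub_iff_add_eq] at hx
        rw [hx]; module
      have hzat : (z : Mat) *ᵥ pu a t = -(pu a t) := by
        rw [hzv, T.C_pu, map_smul, LinearMap.smul_apply, smul_smul, div_mul_cancel₀ _ ht0]
        module
      rw [Units.val_mul, ← Matrix.mulVec_mulVec, hzat, Matrix.mulVec_neg, hIat]
      simp only [LinearMap.smul_apply, map_smul]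
      module
  obtain ⟨α, hα⟩ : ∃ α, ω ((2 : F) • ψ α) α ≠ 0 := by
    by_contra hc
    push Not at hc
    obtain ⟨c, hc'⟩ := T.scalar_of_alt hA (f := ψ) fun x => by
      have := hc x
      rw [map_smul, LinearMap.smul_apply, smul_eq_mul] at this
      exact (mul_eq_zero.mp this).resolve_left T.two
    exact hψ ⟨c, hc'⟩
  set N := (2 : F) • ψ with hN
  have hα0 : α ≠ 0 := fun h => hα (by simp [h])
  obtain ⟨h₁, hh₁, e₁⟩ := T.isom (tv ω α 1) LinearMap.id (T.tv_isom α 1) (fun _ _ => rfl)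
  have htv : ∀ x, tv ω α 1 (tv ω α (-1) x) = x := fun x => by
    simp only [tv_apply, map_add, map_smul, LinearMap.add_apply, LinearMap.smul_apply, smul_eq_mul, T.alt]
    module
  have htv' : ∀ x, tv ω α (-1) (tv ω α 1 x) = x := fun x => by
    simp only [tv_apply, map_add, map_smul, LinearMap.add_apply, LinearMap.smul_apply, smul_eq_mul, T.alt]
    module
  have hinv : ∀ x u, ((h₁⁻¹ : GL (Fin m ⊕ Fin m) F) : Mat) *ᵥ pu x u = pu (tv ω α (-1) x) u := by
    intro x u
    have := congrArg (((h₁⁻¹ : GL (Fin m ⊕ Fin m) F) : Mat) *ᵥ ·) (e₁ (tv ω α (-1) x) u)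
    simp only [gl_inv_mulVec, htv, LinearMap.id_apply] at this
    exact this.symm
  have hE1 : E (h₁ * (I * z) * h₁⁻¹) (tv ω α 1 ∘ₗ N ∘ₗ tv ω α (-1)) := by
    refine ⟨fun b => ?_, fun a => ?_⟩
    · rw [Units.val_mul, Units.val_mul, ← Matrix.mulVec_mulVec, ← Matrix.mulVec_mulVec, hinv, hU.1, e₁, htv,
        LinearMap.id_apply]
    · rw [Units.val_mul, Units.val_mul, ← Matrix.mulVec_mulVec, ← Matrix.mulVec_mulVec, hinv, hU.2,
        Matrix.mulVec_add, e₁, e₁, htv]
      rfl
  have hE2 : E (h₁⁻¹ * (I * z) * h₁) (tv ω α (-1) ∘ₗ N ∘ₗ tv ω α 1) := by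
    refine ⟨fun b => ?_, fun a => ?_⟩
    · rw [Units.val_mul, Units.val_mul, ← Matrix.mulVec_mulVec, ← Matrix.mulVec_mulVec, e₁, LinearMap.id_apply,
        hU.1, hinv, htv']
    · rw [Units.val_mul, Units.val_mul, ← Matrix.mulVec_mulVec, ← Matrix.mulVec_mulVec, e₁, LinearMap.id_apply,
        hU.2, Matrix.mulVec_add, hinv, hinv, htv']
      rfl
  set W := h₁ * (I * z) * h₁⁻¹ * (h₁⁻¹ * (I * z) * h₁) * (I * z)⁻¹ * (I * z)⁻¹ with hW
  have hUM : I * z ∈ M := M.mul_mem hI hz
  have hWM : W ∈ M := M.mul_mem (M.mul_mem (M.mul_mem (M.mul_mem (M.mul_mem hh₁ hUM) (M.inv_mem hh₁))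
    (M.mul_mem (M.mul_mem (M.inv_mem hh₁) hUM) hh₁)) (M.inv_mem hUM)) (M.inv_mem hUM)
  have hEW := hEmul _ _ _ _ (hEmul _ _ _ _ (hEmul _ _ _ _ hE1 hE2) (hEinv _ _ hU)) (hEinv _ _ hU)
  rw [← hW] at hEW
  have hWt : ∀ a, (W : Mat) *ᵥ pu a t = pu a t + pu (-(2 * ω a α * ω (N α) α) • α) r₀ := fun a => by
    rw [hEW.2]
    congr 2
    simp only [LinearMap.add_apply, LinearMap.comp_apply, LinearMap.neg_apply, tv_apply, map_add, map_smul,
      LinearMap.smul_apply, smul_eq_mul, map_neg]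
    module
  -- the new plane
  obtain ⟨α', hαα'⟩ := T.exists_one hα0
  obtain ⟨w, -, hwt, hwr, hww⟩ : ∃ w, w ≠ 0 ∧ s w t = 0 ∧ s w r₀ ≠ 0 ∧ s w w ≠ 0 := by
    obtain ⟨w₁, hw₁, hw₁0⟩ := exists_perp s T.sym T.two T.snd ![t] (fun i => by simpa [hndef] using ht0)
      (fun i j hij => absurd (Subsingleton.elim i j) hij) (by omega)
    have hle' : ¬ LinearMap.ker (s t) ≤ LinearMap.ker (s r₀) := fun hle => by
      refine hr (T.snd r₀ fun u => ?_)
      have hk : u - (s t u / n) • t ∈ LinearMap.ker (s t) := by simp [← hndef, div_mul_cancel₀ _ ht0]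
      have := LinearMap.mem_ker.mp (hle hk)
      rwa [map_sub, map_smul, hrt, smul_zero, sub_zero] at this
    obtain ⟨w, hw, hwr, hw0⟩ := exists_nonsingular_notMem s T.sym T.two (LinearMap.ker (s t)) (LinearMap.ker (s r₀))
      ⟨w₁, by rw [LinearMap.mem_ker, T.sym]; simpa using hw₁ 0, hw₁0⟩ hle'
    exact ⟨w, fun h => hw0 (by simp [h]), by rw [T.sym]; exact hw, fun h => hwr (by
      rw [LinearMap.mem_ker, T.sym]; exact h), hw0⟩
  refine T.sp_le_of_pair₃ (by omega) hq5 (T.pl_image hA hWM ht0 hαα') hww ?_ ?_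
  · rw [hWt, map_add, T.C_pu, T.C_pu, T.sym t w, hwt, zero_smul, zero_add, T.alt, mul_zero, zero_mul, neg_zero,
      zero_smul, smul_zero]
  · rw [map_smul, hWt, map_add, T.C_pu, T.C_pu, T.sym t w, hwt, zero_smul, zero_add, T.sym r₀ w, T.ωswap α α',
      hαα', smul_smul, smul_smul]
    exact smul_ne_zero (mul_ne_zero (mul_ne_zero (inv_ne_zero ht0) hwr)
      (by
        simp only [mul_neg, mul_one, neg_mul, neg_neg]
        exact mul_ne_zero T.two hα)) hα0

/-- The non-degenerate case. -/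
theorem sp_le_of_nondegenerate₃ (T : TS M ω s pu C) (hA : finrank F A = 2) (hB : finrank F B = 3)
    (hq5 : 5 ≤ Fintype.card F) {p q : V}
    (hP : Pl M p q) (hn : NoKer C pu p q)
    (hrad : ∀ r ∈ plKer C p q, (∀ k ∈ plKer C p q, s r k = 0) → r = 0) : Cfsg.spGL m F ≤ M := by
  classical
  set K := plKer C p q with hKdef
  set S := LinearMap.BilinForm.orthogonal s K with hSdef
  obtain ⟨hpq, I, hI, hIv⟩ := hP
  haveI : Nontrivial A := Module.nontrivial_of_finrank_pos (R := F) (by omega)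
  obtain ⟨a₀, ha₀⟩ := exists_ne (0 : A)
  obtain ⟨a₁, ha01⟩ := T.exists_one ha₀
  have hfK : finrank F B ≤ finrank F K + 2 := T.finrank_plKer hA hn
  have hS2 : finrank F S ≤ 2 := by
    rw [hSdef, LinearMap.BilinForm.finrank_orthogonal T.snd']
    omega
  have hSK : ∀ v ∈ S, v ∈ K → v = 0 := fun v hv hvK => hrad v hvK fun k hk => by rw [T.sym]; exact hv k hk
  have hcompl : IsCompl K S := by
    rw [hSdef, LinearMap.BilinForm.isCompl_orthogonal_iff_disjoint T.srefl]
    rw [Submodule.disjoint_def]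
    exact fun v hvK hv => hSK v hv hvK
  have hK1 : 1 ≤ finrank F K := by omega
  obtain ⟨t₁, ht₁, ht₁0⟩ : ∃ t ∈ S, s t t ≠ 0 := by
    by_contra hc
    push Not at hc
    have hz := fun u hu v hv => apply_eq_zero_of_singular s T.sym T.two hc (u := u) (v := v) hu hv
    have hS0 : ∀ v ∈ S, v = 0 := fun v hv => T.snd v fun u => by
      obtain ⟨k, hk, v', hv', rfl⟩ := Submodule.mem_sup.mp (hcompl.sup_eq_top ▸ Submodule.mem_top : u ∈ K ⊔ S)
      rw [map_add, hz v hv v' hv', T.sym v k, hv k hk, add_zero]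
    have hall : ∀ u, C u p = 0 := fun u => by
      obtain ⟨k, hk, v', hv', rfl⟩ := Submodule.mem_sup.mp (hcompl.sup_eq_top ▸ Submodule.mem_top : u ∈ K ⊔ S)
      rw [hS0 v' hv', add_zero]
      exact (mem_plKer.mp hk).1
    rw [T.eq_zero_of_C hall, map_zero, LinearMap.zero_apply] at hpq
    exact zero_ne_one hpq
  -- a non-singular vector of the kernel and a second basis vector of its orthogonal plane
  obtain ⟨k₀, hk₀, hk₀0⟩ : ∃ k ∈ K, s k k ≠ 0 := by
    by_contra hc
    push Not at hc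
    have hbot : K = ⊥ := (Submodule.eq_bot_iff K).mpr fun x hx =>
      hrad x hx fun y hy => apply_eq_zero_of_singular s T.sym T.two hc hx hy
    rw [hbot, finrank_bot] at hK1
    omega
  obtain ⟨t₂, ht₂, ht₂1, ht₂0⟩ : ∃ t₂ ∈ S, s t₂ t₁ = 0 ∧ s t₂ t₂ ≠ 0 := by
    have hS' : 2 ≤ finrank F S := by
      by_contra hlt
      have hS1 : ∀ σ ∈ S, ∃ e : F, σ = e • t₁ := by
        obtain ⟨w, hw⟩ := finrank_le_one_iff.mp (show finrank F S ≤ 1 by omega)
        intro σ hσ
        obtain ⟨e₁, h₁⟩ := hw ⟨t₁, ht₁⟩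
        obtain ⟨e₂, h₂⟩ := hw ⟨σ, hσ⟩
        have h₁' : e₁ • (w : B) = t₁ := congrArg Subtype.val h₁
        have h₂' : e₂ • (w : B) = σ := congrArg Subtype.val h₂
        have he₁ : e₁ ≠ 0 := fun h => ht₁0 (by rw [← h₁', h, zero_smul]; simp)
        exact ⟨e₂ / e₁, by rw [← h₁', smul_smul, div_mul_cancel₀ _ he₁, h₂']⟩
      have hdec : ∀ x, (∀ k ∈ K, C k x = 0) → ∃ α : A, x = pu α t₁ := fun x hx => by
        obtain ⟨σ₁, h1, σ₂, h2, e⟩ := T.mem_tensor hA K hx ha01
        obtain ⟨e₁, rfl⟩ := hS1 σ₁ h1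
        obtain ⟨e₂, rfl⟩ := hS1 σ₂ h2
        exact ⟨e₁ • a₀ + e₂ • a₁, by
          rw [e, map_smul, map_smul, map_add, map_smul, map_smul, LinearMap.add_apply, LinearMap.smul_apply,
            LinearMap.smul_apply]⟩
      obtain ⟨α, hα⟩ := hdec p fun k hk => (mem_plKer.mp hk).1
      obtain ⟨γ, hγ⟩ := hdec q fun k hk => (mem_plKer.mp hk).2
      have h1 : ω α (s t₁ t₁ • γ) = 1 := by
        rw [map_smul, smul_eq_mul, mul_comm, ← T.form, ← hα, ← hγ, hpq]
      refine hn.2 ⟨t₁, fun h => ht₁0 (by simp [h]), fun x => Submodule.mem_span_pair.mpr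
        ⟨ω x (s t₁ t₁ • γ), -(ω x α * s t₁ t₁), ?_⟩⟩
      conv_rhs => rw [T.expand2 hA h1 x]
      rw [hα, hγ]
      simp only [map_sub, map_smul, LinearMap.sub_apply, LinearMap.smul_apply, smul_eq_mul]
      module
    obtain ⟨⟨u, hu⟩, hut, hu0⟩ := exists_perp (s.compl₁₂ S.subtype S.subtype) (fun u v => T.sym u v) T.two
      (fun u hu => Subtype.ext (hSK u u.2 (by
        have hperp : (u : B) ∈ LinearMap.BilinForm.orthogonal s S := fun σ hσ => by
          show s σ u = 0
          rw [T.sym]; exact hu ⟨σ, hσ⟩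
        have key : ∀ z : B, z ∈ LinearMap.BilinForm.orthogonal s S → z ∈ K := fun z hz => by
          rwa [hSdef, LinearMap.BilinForm.orthogonal_orthogonal T.snd' T.srefl] at hz
        exact key _ hperp)))
      ![(⟨t₁, ht₁⟩ : S)] (fun i => by simpa using ht₁0) (fun i j hij => absurd (Subsingleton.elim i j) hij) (by omega)
    exact ⟨u, hu, by simpa using hut 0, hu0⟩
  obtain ⟨t, ht, ht0, htκ⟩ : ∃ t ∈ S, s t t ≠ 0 ∧ s t t = -s k₀ k₀ := by
    obtain ⟨x, y, hxy⟩ := exists_binary_value ht₁0 ht₂0 T.two (-s k₀ k₀)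
    have e : s (x • t₁ + y • t₂) (x • t₁ + y • t₂) = -s k₀ k₀ := by
      simp only [map_add, map_smul, LinearMap.add_apply, LinearMap.smul_apply, smul_eq_mul, ht₂1, T.sym t₁ t₂]
      linear_combination hxy
    exact ⟨_, S.add_mem (S.smul_mem x ht₁) (S.smul_mem y ht₂), by rw [e]; exact neg_ne_zero.mpr hk₀0, e⟩
  have htK : t ∉ K := fun h => ht0 (by rw [hSK t ht h]; simp)
  set n := s t t with hndef
  have hkt : ∀ k ∈ K, s k t = 0 := ht
  have hCKproj : ∀ k ∈ K, ∀ y, C k (proj p q y) = 0 := fun k hk y => by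
    rw [proj_apply, map_sub, map_smul, map_smul, (mem_plKer.mp hk).1, (mem_plKer.mp hk).2, smul_zero, smul_zero,
      sub_zero]
  have hKI : ∀ k ∈ K, ∀ a, C k ((I : Mat) *ᵥ pu a t) = 0 := fun k hk a => by
    rw [hIv, map_sub, map_smul, hCKproj k hk, T.C_pu, T.sym t k, hkt k hk, zero_smul, smul_zero, sub_zero]
  -- the scalar
  obtain ⟨c, hc⟩ := T.scalar_of_alt hA (f := (C t).comp ((Matrix.mulVecLin (I : Mat)).comp (pu.flip t))) fun x => by
    simp only [LinearMap.comp_apply, LinearMap.flip_apply, Matrix.mulVecLin_apply]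
    rw [T.adj, hIv, map_sub, map_smul, LinearMap.sub_apply, LinearMap.smul_apply, beta_self, proj_apply,
      map_sub, map_smul, map_smul, LinearMap.sub_apply, LinearMap.smul_apply, LinearMap.smul_apply,
      beta_swap (pu x t) p, beta_swap (pu x t) q, smul_eq_mul, smul_eq_mul, smul_eq_mul]
    ring
  simp only [LinearMap.comp_apply, LinearMap.flip_apply, Matrix.mulVecLin_apply] at hc
  set γ := c / n with hγ
  have hγn : c = γ * n := by rw [hγ, div_mul_cancel₀ _ ht0]
  have hCproj : ∀ a, (2 : F) • C t (proj p q (pu a t)) = ((1 - γ) * n) • a := fun a => by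
    have := hc a
    rw [hIv, map_sub, map_smul, T.C_pu, ← hndef, hγn] at this
    rw [sub_eq_iff_eq_add'] at this
    rw [sub_mul, sub_smul, one_mul, this]
    module
  have hγ1 : γ ≠ 1 := by
    intro h1
    refine T.not_pure_image hn htK (σ := t) fun a => ?_
    have h0 : C t (proj p q (pu a t)) = 0 := by
      have := hCproj a
      rw [h1, sub_self, zero_mul, zero_smul] at this
      exact (smul_eq_zero.mp this).resolve_left T.two
    rw [proj_apply, sub_eq_add_neg, ← neg_smul] at h0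
    by_cases hcd : β (pu a t) q = 0 ∧ -β (pu a t) p = 0
    · rw [proj_apply, hcd.1, neg_eq_zero.mp hcd.2, zero_smul, zero_smul, sub_zero, smul_zero, sub_zero]
    · exact absurd (mem_plKer.mpr (hn.1 _ _ t hcd h0)) htK
  have hN : ∀ σ₁ ∈ S, ∀ σ₂ ∈ S, s σ₁ t = 0 → s σ₂ t = 0 → σ₁ ≠ 0 → ∃ e : F, σ₂ = e • σ₁ := by
    intro σ₁ h1 σ₂ h2 o1 o2 hne
    have hli : LinearIndependent F ![(⟨t, ht⟩ : S), ⟨σ₁, h1⟩] := by
      rw [LinearIndependent.pair_iff]
      intro e f h
      have h' : e • t + f • σ₁ = 0 := congrArg Subtype.val h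
      have h1' := congrArg (s t) h'
      simp [T.sym t σ₁, o1, ht0, ← hndef] at h1'
      subst h1'
      simp [hne] at h'
      exact ⟨rfl, h'⟩
    obtain ⟨e, he⟩ := (Submodule.mem_span_range_iff_exists_fun F).mp
      (show (⟨σ₂, h2⟩ : S) ∈ Submodule.span F (Set.range ![(⟨t, ht⟩ : S), ⟨σ₁, h1⟩]) from
        (hli.span_eq_top_of_card_eq_finrank (le_antisymm (by simpa using hli.fintype_card_le_finrank)
          (by simpa using hS2))) ▸ trivial)
    have he' : e 0 • t + e 1 • σ₁ = σ₂ := by simpa [Fin.sum_univ_two] using congrArg Subtype.val he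
    have h0 := congrArg (fun x => s x t) he'
    simp [o1, o2, ← hndef, ht0] at h0
    exact ⟨e 1, by rw [← he', h0, zero_smul, zero_add]⟩
  have hγm : γ ≠ -1 := by
    intro h1
    refine hn.2 ⟨t, fun h => ht0 (by simp [hndef, h]), fun a => ?_⟩
    set y := pu a t - proj p q (pu a t) with hy
    suffices hy0 : y = 0 by
      rw [sub_eq_zero.mp hy0]; exact proj_mem p q _
    have hyt : C t y = 0 := by
      have := hCproj a
      rw [h1] at this
      have h2 : C t (proj p q (pu a t)) = n • a := smul_right_injective A T.two (by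
        simp only [this, smul_smul]; congr 1; ring)
      rw [hy, map_sub, T.C_pu, ← hndef, h2, sub_self]
    have hyK : ∀ k ∈ K, C k y = 0 := fun k hk => by
      rw [hy, map_sub, hCKproj k hk, T.C_pu, T.sym t k, hkt k hk, zero_smul, sub_zero]
    obtain ⟨σ₁, h1', σ₂, h2', e⟩ := T.mem_tensor hA K hyK ha01
    have hz : s σ₁ t • a₀ + s σ₂ t • a₁ = 0 := by
      rw [e, map_add, T.C_pu, T.C_pu] at hyt; exact hyt
    have o1 : s σ₁ t = 0 := by
      have := congrArg (fun x => ω x a₁) hz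
      simpa [T.alt, ha01] using this
    have o2 : s σ₂ t = 0 := by
      have := congrArg (ω a₀) hz
      simpa [T.alt, ha01] using this
    obtain ⟨b, t₁, ht₁, ot₁, ey⟩ : ∃ b t₁, t₁ ∈ S ∧ s t₁ t = 0 ∧ y = pu b t₁ := by
      by_cases hne : σ₁ = 0
      · exact ⟨a₁, σ₂, h2', o2, by rw [e, hne, map_zero, zero_add]⟩
      · obtain ⟨f, rfl⟩ := hN σ₁ h1' σ₂ h2' o1 o2 hne
        exact ⟨a₀ + f • a₁, σ₁, h1', o1, by rw [e, map_add, map_smul, map_smul, LinearMap.add_apply, LinearMap.smul_apply]⟩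
    have hyp : β y p = 0 ∧ β y q = 0 := by
      constructor <;>
        simp [hy, proj_apply, beta_self, beta_swap p q, hpq]
    rw [ey] at hyp ⊢
    rw [T.beta_pu, T.beta_pu] at hyp
    by_contra hne
    have hb : b ≠ 0 := fun h => hne (by rw [h, map_zero, LinearMap.zero_apply])
    have ht₁0 : t₁ ≠ 0 := fun h => hne (by rw [h, map_zero])
    obtain ⟨c₁, hc₁⟩ := Submodule.mem_span_singleton.mp (T.dependent hA hb
      (by rw [T.ωswap b, hyp.1, neg_zero] : ω (C t₁ p) b = 0))
    obtain ⟨c₂, hc₂⟩ := Submodule.mem_span_singleton.mp (T.dependent hA hb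
      (by rw [T.ωswap b, hyp.2, neg_zero] : ω (C t₁ q) b = 0))
    have ht₁K : t₁ ∉ K := fun h => ht₁0 (hSK t₁ ht₁ h)
    by_cases hc0 : c₁ = 0
    · refine ht₁K (mem_plKer.mpr (hn.1 1 0 t₁ (by simp) ?_))
      rw [one_smul, zero_smul, add_zero, ← hc₁, hc0, zero_smul]
    · refine ht₁K (mem_plKer.mpr (hn.1 c₂ (-c₁) t₁ (by simp [hc0]) ?_))
      rw [map_add, map_smul, map_smul, ← hc₁, ← hc₂]
      module
  -- the swapping case
  by_cases hγ0 : γ = 0
  · refine T.sp_le_of_swap hA hB hq5 ⟨hpq, I, hI, hIv⟩ hI hIv hn hk₀ hk₀0 ht ht0 htK htκ ?_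
    intro a
    rw [hc, hγn, hγ0, zero_mul, zero_smul]
  -- a vector of the kernel with prescribed norm
  obtain ⟨k, hk, hk0', hkn⟩ : ∃ k ∈ K, k ≠ 0 ∧ s k k = -(γ * γ * n) := by
    refine ⟨γ • k₀, K.smul_mem γ hk₀, smul_ne_zero hγ0 (fun h => hk₀0 (by simp [h])), ?_⟩
    simp only [map_smul, LinearMap.smul_apply, smul_eq_mul]
    linear_combination (γ * γ) * htκ
  have hkp := mem_plKer.mp hk
  have hIk : ∀ a, (I : Mat) *ᵥ pu a k = pu a k := fun a => by
    rw [hIv, T.proj_eq_zero hkp.1 hkp.2, smul_zero, sub_zero]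
  have htk : s t k = 0 := by rw [T.sym]; exact hkt k hk
  set w := t + k with hw
  have hww : s w w ≠ 0 := by
    rw [hw]
    simp only [map_add, LinearMap.add_apply, hkn, htk, hkt k hk, add_zero, zero_add, ← hndef]
    rw [show n + -(γ * γ * n) = (1 - γ) * (1 + γ) * n by ring]
    exact mul_ne_zero (mul_ne_zero (sub_ne_zero.mpr (Ne.symm hγ1))
      (fun h => hγm (eq_neg_of_add_eq_zero_right h))) ht0
  have hQ := T.pl_image hA hI hww ha01
  set p' := (I : Mat) *ᵥ pu a₀ w
  set q' := (s w w)⁻¹ • ((I : Mat) *ᵥ pu a₁ w)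
  have hIw : ∀ a, (I : Mat) *ᵥ pu a w = pu a k + (I : Mat) *ᵥ pu a t := fun a => by
    rw [hw, map_add, Matrix.mulVec_add, hIk, add_comm]
  set r₀ := k + γ • t with hr₀
  have hr₀C : ∀ a, C r₀ ((I : Mat) *ᵥ pu a w) = 0 := fun a => by
    rw [hIw, hr₀, map_add, map_add, map_smul, LinearMap.add_apply, LinearMap.smul_apply, LinearMap.add_apply,
      LinearMap.smul_apply, T.C_pu, T.C_pu, hKI k hk, hc, hkn, hkt k hk, zero_smul, smul_zero, zero_add, add_zero,
      smul_smul, hγn, ← add_smul]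
    rw [show -(γ * γ * n) + γ * (γ * n) = 0 by ring, zero_smul]
  have hinv : ∀ y, (I : Mat) *ᵥ ((I : Mat) *ᵥ y) = y := fun y => by
    rw [hIv ((I : Mat) *ᵥ y), hIv y, map_sub, map_smul, proj_plane hpq (proj_mem p q y)]
    module
  have hpure : ¬ ∃ v : B, v ≠ 0 ∧ ∀ a, pu a v ∈ Submodule.span F ({p', q'} : Set V) := by
    rintro ⟨v, hv, hvm⟩
    obtain ⟨u₀, hu₀, hku₀⟩ : ∃ u₀ ∈ K, s k u₀ ≠ 0 := by
      by_contra hc'
      push Not at hc'
      exact hk0' (hrad k hk hc')
    refine T.not_pure_image hn htK (σ := (s k u₀ / s v u₀) • v - k) fun a => ?_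
    obtain ⟨e, f, hef⟩ := Submodule.mem_span_pair.mp (hvm a)
    set g := e • a₀ + (f * (s w w)⁻¹) • a₁
    have hg : pu a v = (I : Mat) *ᵥ pu g w := by
      rw [← hef]
      simp only [p', q', g, map_add, map_smul, LinearMap.add_apply, LinearMap.smul_apply, Matrix.mulVec_add,
        Matrix.mulVec_smul, smul_smul]
    have hCu : s v u₀ • a = s k u₀ • g := by
      have := congrArg (C u₀) hg
      rwa [hIw, map_add, T.C_pu, T.C_pu, hKI u₀ hu₀, add_zero] at this
    rw [← hIv]
    by_cases hvu : s v u₀ = 0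
    · rw [hvu, zero_smul, eq_comm] at hCu
      rw [(smul_eq_zero.mp hCu).resolve_left hku₀, map_zero, LinearMap.zero_apply, Matrix.mulVec_zero] at hg
      have hz : ∀ u, s v u • a = 0 := fun u => by rw [← T.C_pu, hg, map_zero]
      rcases eq_or_ne a 0 with rfl | ha
      · simp
      · exact absurd (T.snd v fun u => (smul_eq_zero.mp (hz u)).resolve_right ha) hv
    · have hga : g = (s v u₀ / s k u₀) • a := by
        rw [div_eq_inv_mul, ← smul_smul, hCu, inv_smul_smul₀ hku₀]
      rw [hga, map_smul, LinearMap.smul_apply, Matrix.mulVec_smul, hIw] at hg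
      rw [map_sub, map_smul, hg, smul_smul, show s k u₀ / s v u₀ * (s v u₀ / s k u₀) = 1 by field_simp, one_smul,
        add_sub_cancel_left]
  rcases T.noKer_or₃ hA hB hq5 hQ hpure with h | hn'
  · exact h
  refine T.sp_le_of_degenerate₃ hA hB hq5 hQ hn' (r₀ := r₀) ?_ (mem_plKer.mpr ⟨hr₀C a₀, ?_⟩) fun u hu => ?_
  · intro h
    have := congrArg (fun x => s x t) h
    simp [hr₀, hkt k hk, ← hndef, ht0] at this
    rw [hr₀, this, zero_smul, add_zero] at h
    exact hk0' h
  · rw [map_smul, hr₀C a₁, smul_zero]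
  · obtain ⟨hu1, hu2⟩ := mem_plKer.mp hu
    rw [map_smul, smul_eq_zero] at hu2
    replace hu2 := hu2.resolve_left (inv_ne_zero hww)
    have hall : ∀ a, C u ((I : Mat) *ᵥ pu a w) = 0 := fun a => by
      rw [T.expand2 hA ha01 a]
      simp only [map_sub, map_smul, LinearMap.sub_apply, LinearMap.smul_apply, Matrix.mulVec_sub, Matrix.mulVec_smul]
      rw [hu1, hu2, smul_zero, smul_zero, sub_zero]
    obtain ⟨k', hk', v, hv, rfl⟩ := Submodule.mem_sup.mp (hcompl.sup_eq_top ▸ Submodule.mem_top : u ∈ K ⊔ S)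
    set e := s v t / n with he
    set n' := v - e • t with hn''
    have hn't : s n' t = 0 := by
      rw [hn'', map_sub, map_smul, LinearMap.sub_apply, LinearMap.smul_apply, smul_eq_mul, he, ← hndef,
        div_mul_cancel₀ _ ht0, sub_self]
    have hn'S : n' ∈ S := S.sub_mem hv (S.smul_mem e ht)
    have hv' : v = e • t + n' := by rw [hn'']; abel
    have hsn'k : s n' k = 0 := by rw [T.sym]; exact hn'S k hk
    have hcoef : ∀ a, C n' ((I : Mat) *ᵥ pu a t) = (-(s k k' + e * (γ * n))) • a := fun a => by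
      have h0 := hall a
      rw [hv', hIw, map_add C, map_add C, map_smul C, LinearMap.add_apply, LinearMap.add_apply, LinearMap.smul_apply,
        map_add, map_add (C t), map_add (C n'), T.C_pu, T.C_pu, T.C_pu, hKI k' hk', hc, hkt k hk, T.sym k n',
        hsn'k, zero_smul, zero_add, zero_add, add_zero, hγn, smul_smul] at h0
      rw [← sub_eq_zero, ← h0]
      module
    by_cases hn0 : n' = 0
    · simp only [hn0, map_zero, LinearMap.zero_apply] at hcoef
      have := (smul_eq_zero.mp (hcoef a₀).symm).resolve_right ha₀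
      rw [hv', hn0, add_zero, hr₀]
      simp only [map_add, map_smul, LinearMap.add_apply, LinearMap.smul_apply, smul_eq_mul, hkt k hk,
        T.sym t k', hkt k' hk', ← hndef]
      linear_combination (-1 : F) * this
    · exfalso
      set d := -(s k k' + e * (γ * n))
      have hn'n : s n' n' ≠ 0 := fun h => hn0 (hSK n' hn'S (by
        -- `n'` is orthogonal to `S`, hence in the kernel
        have hperp : ∀ σ ∈ S, s σ n' = 0 := fun σ hσ => by
          set f := s σ t / n
          have h3 : σ - f • t ∈ S := S.sub_mem hσ (S.smul_mem f ht)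
          have h4 : s (σ - f • t) t = 0 := by
            rw [map_sub, map_smul, LinearMap.sub_apply, LinearMap.smul_apply, smul_eq_mul, ← hndef,
              div_mul_cancel₀ _ ht0, sub_self]
          obtain ⟨g, hg⟩ := hN n' hn'S _ h3 hn't h4 hn0
          have : σ = g • n' + f • t := by rw [← hg, sub_add_cancel]
          rw [this]
          simp [h, T.sym t n', hn't]
        have hmem : n' ∈ LinearMap.BilinForm.orthogonal s S := hperp
        rwa [hSdef, LinearMap.BilinForm.orthogonal_orthogonal T.snd' T.srefl] at hmem))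
      refine T.not_pure_image hn htK (σ := γ • t + (d / s n' n') • n') fun a => ?_
      rw [← hIv]
      refine T.eq_of_C fun x => ?_
      obtain ⟨k'', hk'', σ, hσ, rfl⟩ := Submodule.mem_sup.mp (hcompl.sup_eq_top ▸ Submodule.mem_top : x ∈ K ⊔ S)
      set f := s σ t / n
      have h3 : σ - f • t ∈ S := S.sub_mem hσ (S.smul_mem f ht)
      have h4 : s (σ - f • t) t = 0 := by
        rw [map_sub, map_smul, LinearMap.sub_apply, LinearMap.smul_apply, smul_eq_mul, ← hndef,
          div_mul_cancel₀ _ ht0, sub_self]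
      obtain ⟨g, hg⟩ := hN n' hn'S _ h3 hn't h4 hn0
      have hσ' : σ = g • n' + f • t := by rw [← hg, sub_add_cancel]
      have hn'k'' : s n' k'' = 0 := by rw [T.sym]; exact hn'S k'' hk''
      have htk'' : s t k'' = 0 := by rw [T.sym]; exact hkt k'' hk''
      rw [hσ']
      simp only [map_add, map_smul, LinearMap.add_apply, LinearMap.smul_apply, smul_eq_mul, hKI k'' hk'', hc, hγn,
        hcoef, T.C_pu, hn'k'', htk'', hn't, T.sym t n', ← hndef, mul_zero, zero_add, add_zero, zero_smul, smul_smul,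
        smul_zero, div_mul_cancel₀ _ hn'n]
      match_scalars
      field_simp
      ring

/-- A plane that is not pure gives everything. -/
theorem sp_le_of_plane₃ (T : TS M ω s pu C) (hA : finrank F A = 2) (hB : finrank F B = 3) (hq5 : 5 ≤ Fintype.card F)
    {p q : V} (hP : Pl M p q)
    (hpure : ¬ ∃ v : B, v ≠ 0 ∧ ∀ a, pu a v ∈ Submodule.span F ({p, q} : Set V)) : Cfsg.spGL m F ≤ M := by
  rcases T.noKer_or₃ hA hB hq5 hP hpure with h | hn
  · exact h
  by_cases hd : ∃ r ∈ plKer C p q, r ≠ 0 ∧ ∀ k ∈ plKer C p q, s r k = 0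
  · obtain ⟨r, hr, hr0, hrad⟩ := hd
    exact T.sp_le_of_degenerate₃ hA hB hq5 hP hn hr0 hr hrad
  · push Not at hd
    refine T.sp_le_of_nondegenerate₃ hA hB hq5 hP hn fun r hr h => ?_
    by_contra hr0
    obtain ⟨k, hk, hne⟩ := hd r hr hr0
    exact hne (h k hk)

end Cfsg.Agent.H25.GeoLists.TS
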