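import Cfsg.Agent.H25.GeoLists.SpTensor.RankThree.Exceptional
import Cfsg.Agent.H25.GeoLists.SpTensor.Pure

/-!
An element mapping every basic plane to a pure plane is a tensor product, for a three dimensional second factor.
-/

set_option autoImplicit false
set_option linter.unusedSectionVars false

namespace Cfsg.Agent.H25.GeoLists.TS

open scoped Matrix
open Cfsg.Agent.H98 Module

attribute [-simp] Cfsg.Agent.H2.sympBilin_apply

variable {m : ℕ} {F : Type*} [Field F] {A B : Type*} [AddCommGroup A] [Module F A] [AddCommGroup B] [Module F B]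
variable {M : Subgroup (GL (Fin m ⊕ Fin m) F)} {ω : A →ₗ[F] A →ₗ[F] F} {s : B →ₗ[F] B →ₗ[F] F}
  {pu : A →ₗ[F] B →ₗ[F] (Fin m ⊕ Fin m → F)} {C : B →ₗ[F] (Fin m ⊕ Fin m → F) →ₗ[F] A}
  [Fintype F] [FiniteDimensional F A] [FiniteDimensional F B]

local notation "V" => (Fin m ⊕ Fin m → F)
local notation "Mat" => Matrix (Fin m ⊕ Fin m) (Fin m ⊕ Fin m) F
local notation "β" => Cfsg.Agent.H2.sympBilin m F

/-- Either some plane gives everything or the element is a tensor product. -/
theorem pure_or_sp_le₃ (T : TS M ω s pu C) (hA : finrank F A = 2) (hB : finrank F B = 3)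
    (hq5 : 5 ≤ Fintype.card F) {g : GL (Fin m ⊕ Fin m) F}
    (hg : g ∈ M) : Cfsg.spGL m F ≤ M ∨ ∃ (G : A →ₗ[F] A) (k : B →ₗ[F] B),
      ∀ x u, (g : Mat) *ᵥ pu x u = pu (G x) (k u) := by
  classical
  haveI : Nontrivial A := Module.nontrivial_of_finrank_pos (R := F) (by omega)
  obtain ⟨a₀, ha₀⟩ := exists_ne (0 : A)
  obtain ⟨a₁, ha01⟩ := T.exists_one ha₀
  by_cases hall : ∀ u : B, s u u ≠ 0 → ∃ v : B, v ≠ 0 ∧ ∀ a, pu a v ∈ Submodule.span F
      ({(g : Mat) *ᵥ pu a₀ u, (s u u)⁻¹ • ((g : Mat) *ᵥ pu a₁ u)} : Set V)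
  swap
  · push Not at hall
    obtain ⟨u, hu, hv⟩ := hall
    exact Or.inl (T.sp_le_of_plane₃ hA hB hq5 (T.pl_image hA hg hu ha01) fun ⟨v, hv0, hvm⟩ => by
      obtain ⟨a, ha⟩ := hv v hv0
      exact ha (hvm a))
  refine Or.inr ?_
  -- each basic plane goes to a pure plane
  have hfact : ∀ u : B, s u u ≠ 0 → ∃ (v : B) (G : A →ₗ[F] A), v ≠ 0 ∧
      ∀ a, (g : Mat) *ᵥ pu a u = pu (G a) v := by
    intro u hu
    obtain ⟨v, hv, hvm⟩ := hall u hu
    obtain ⟨w, hw⟩ : ∃ w, s v w ≠ 0 := by by_contra hc; push Not at hc; exact hv (T.snd v hc)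
    have hL : ∀ a, ∃ b, pu a v = (g : Mat) *ᵥ pu b u := fun a => by
      obtain ⟨e, f, hef⟩ := Submodule.mem_span_pair.mp (hvm a)
      refine ⟨e • a₀ + (f * (s u u)⁻¹) • a₁, ?_⟩
      rw [← hef]
      simp only [map_add, map_smul, LinearMap.add_apply, LinearMap.smul_apply, Matrix.mulVec_add, Matrix.mulVec_smul,
        smul_smul]
    choose L hL using hL
    have hinjL : Function.Injective L := fun x y he => by
      have h := congrArg (C w) ((hL x).trans ((congrArg (fun b => (g : Mat) *ᵥ pu b u) he).trans (hL y).symm))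
      rw [T.C_pu, T.C_pu] at h
      exact smul_right_injective A hw h
    haveI : Finite A := Module.finite_of_finite F
    have hsur : Function.Surjective L := Finite.surjective_of_injective hinjL
    refine ⟨v, (s v w)⁻¹ • (C w).comp ((Matrix.mulVecLin (g : Mat)).comp (pu.flip u)), hv, fun a => ?_⟩
    obtain ⟨x, rfl⟩ := hsur a
    simp only [LinearMap.smul_apply, LinearMap.comp_apply, LinearMap.flip_apply, Matrix.mulVecLin_apply]
    rw [← hL, T.C_pu, inv_smul_smul₀ hw]
  choose! v G hv hG using hfact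
  have hn : ∀ u, s u u ≠ 0 → s (v u) (v u) ≠ 0 ∧ ∀ x y, ω (G u x) (G u y) * s (v u) (v u) = ω x y * s u u := by
    intro u hu
    have h := fun x y => mem_spGL.mp (T.sp hg) (pu x u) (pu y u)
    simp only [hG u hu, T.form] at h
    refine ⟨fun h0 => ?_, h⟩
    have := h a₀ a₁
    rw [h0, mul_zero, ha01, one_mul] at this
    exact hu this.symm
  have hG0 : ∀ u, s u u ≠ 0 → ∀ x y, ω x y ≠ 0 → ω (G u x) (G u y) ≠ 0 := fun u hu x y hxy h => by
    have := (hn u hu).2 x y
    rw [h, zero_mul] at this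
    exact mul_ne_zero hxy hu this.symm
  have horth : ∀ u u', s u u ≠ 0 → s u' u' ≠ 0 → s u u' = 0 → s (v u) (v u') = 0 := by
    intro u u' hu hu' h
    -- some pair of images pairs non-trivially
    obtain ⟨x, y, hxy⟩ : ∃ x y, ω (G u x) (G u' y) ≠ 0 := by
      obtain ⟨q, hq⟩ : ∃ q, ω (G u a₀) q ≠ 0 := ⟨_, hG0 u hu a₀ a₁ (by rw [ha01]; exact one_ne_zero)⟩
      have hinj : Function.Injective (G u') := by
        refine (injective_iff_map_eq_zero _).mpr fun x hx => ?_
        refine T.ωnd x fun y => ?_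
        by_contra hne
        exact hG0 u' hu' x y hne (by rw [hx, map_zero, LinearMap.zero_apply])
      obtain ⟨y, rfl⟩ := LinearMap.surjective_of_injective hinj q
      exact ⟨a₀, y, hq⟩
    have e := mem_spGL.mp (T.sp hg) (pu x u) (pu y u')
    rw [hG u hu, hG u' hu', T.form, T.form, h, mul_zero] at e
    exact (mul_eq_zero.mp e).resolve_left hxy
  have hprop : ∀ u u', s u u ≠ 0 → s u' u' ≠ 0 → s u u' = 0 → ∃ c : F, ∀ x, G u' x = c • G u x := by
    intro u u' hu hu' huu
    have hu'u : s u' u = 0 := by rw [T.sym]; exact huu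
    obtain ⟨w₁, hw₁, hw₁0⟩ := exists_perp s T.sym T.two T.snd ![u, u'] (fun i => by fin_cases i <;> simpa)
      (fun i j hij => by fin_cases i <;> fin_cases j <;> simp_all) (by omega)
    obtain ⟨c, hc0, hc⟩ : ∃ c : F, c ≠ 0 ∧ s u u + s u' u' + c * c * s w₁ w₁ ≠ 0 := by
      obtain ⟨c, hc⟩ : ∃ c : F, c ∉ ({0, 1, -1} : Finset F) := by
        by_contra hall
        push Not at hall
        have := Finset.card_le_card (fun z _ => hall z : (Finset.univ : Finset F) ⊆ {0, 1, -1})
        have := Finset.card_le_three (a := (0 : F)) (b := 1) (c := -1)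
        rw [Finset.card_univ] at *
        omega
      simp only [Finset.mem_insert, Finset.mem_singleton, not_or] at hc
      by_cases h1 : s u u + s u' u' + 1 * 1 * s w₁ w₁ = 0
      · refine ⟨c, hc.1, fun h => ?_⟩
        have := (mul_eq_zero.mp (show ((c - 1) * (c + 1)) * s w₁ w₁ = 0 by linear_combination h - h1)).resolve_right hw₁0
        exact (mul_eq_zero.mp this).elim (fun h' => hc.2.1 (sub_eq_zero.mp h'))
          (fun h' => hc.2.2 (eq_neg_of_add_eq_zero_left h'))
      · exact ⟨1, one_ne_zero, h1⟩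
    set d := c * c * s w₁ w₁
    have hd0 : d ≠ 0 := mul_ne_zero (mul_ne_zero hc0 hc0) hw₁0
    have hd : s u u + s u' u' + d ≠ 0 := hc
    set w := c • w₁
    have hwu : s w u = 0 := by simp [w, show s w₁ u = 0 by simpa using hw₁ 0]
    have hwu' : s w u' = 0 := by simp [w, show s w₁ u' = 0 by simpa using hw₁ 1]
    have hww : s w w = d := by simp [w, d, mul_assoc]
    have huw : s u w = 0 := by rw [T.sym]; exact hwu
    have hu'w : s u' w = 0 := by rw [T.sym]; exact hwu'
    set U := u + u' + w with hUdef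
    have hw : s w w ≠ 0 := by rw [hww]; exact hd0
    have hU : s U U ≠ 0 := by
      rw [hUdef]
      simp only [map_add, LinearMap.add_apply, huu, hu'u, hwu, huw, hwu', hu'w, hww, add_zero, zero_add]
      exact hd
    have key : ∀ z, z = u ∨ z = u' → ∀ x, s (v U) (v z) • G U x = s (v z) (v z) • G z x := by
      intro z hz x
      have h := congrArg (C (v z)) (hG U hU x)
      rw [hUdef, map_add, map_add, Matrix.mulVec_add, Matrix.mulVec_add, map_add, map_add, hG u hu, hG u' hu',
        hG w hw, T.C_pu, T.C_pu, T.C_pu, T.C_pu, ← hUdef] at h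
      rcases hz with h' | h' <;> rw [h'] at h ⊢
      · rw [← h, horth u' u hu' hu hu'u, horth w u hw hu hwu]; simp
      · rw [← h, horth u u' hu hu' huu, horth w u' hw hu' hwu']; simp
    set e := s (v U) (v u)
    have he : e ≠ 0 := by
      intro h0
      have := key u (Or.inl rfl) a₀
      rw [show s (v U) (v u) = 0 from h0, zero_smul] at this
      have h1 := (smul_eq_zero.mp this.symm).resolve_left (hn u hu).1
      exact hG0 u hu a₀ a₁ (by rw [ha01]; exact one_ne_zero) (by rw [h1, map_zero, LinearMap.zero_apply])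
    refine ⟨s (v U) (v u') * e⁻¹ * (s (v u') (v u'))⁻¹ * s (v u) (v u), fun x => ?_⟩
    have hGU : G U x = (e⁻¹ * s (v u) (v u)) • G u x := by
      rw [← smul_smul, ← key u (Or.inl rfl) x, inv_smul_smul₀ he]
    have := key u' (Or.inr rfl) x
    rw [hGU, smul_smul] at this
    calc G u' x = (s (v u') (v u'))⁻¹ • (s (v u') (v u') • G u' x) := (inv_smul_smul₀ (hn u' hu').1 _).symm
      _ = _ := by rw [← this, smul_smul]; congr 1; ring
  obtain ⟨e₁, -, he₁⟩ := exists_perp s T.sym T.two T.snd (Fin.elim0 : Fin 0 → B) (fun i => i.elim0) (fun i => i.elim0)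
    (by omega)
  obtain ⟨e₂, he₂', he₂⟩ := exists_perp s T.sym T.two T.snd ![e₁] (fun i => by simpa using he₁)
    (fun i j hij => absurd (Subsingleton.elim i j) hij) (by omega)
  have he21 : s e₂ e₁ = 0 := by simpa using he₂' 0
  have he12 : s e₁ e₂ = 0 := by rw [T.sym]; exact he21
  obtain ⟨e₃, he₃', he₃⟩ := exists_perp s T.sym T.two T.snd ![e₁, e₂] (fun i => by fin_cases i <;> simpa)
    (fun i j hij => by fin_cases i <;> fin_cases j <;> simp_all) (by omega)
  have he31 : s e₃ e₁ = 0 := by simpa using he₃' 0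
  have he32 : s e₃ e₂ = 0 := by simpa using he₃' 1
  have he13 : s e₁ e₃ = 0 := by rw [T.sym]; exact he31
  have he23 : s e₂ e₃ = 0 := by rw [T.sym]; exact he32
  have hli : LinearIndependent F ![e₁, e₂, e₃] := by
    rw [Fintype.linearIndependent_iff]
    intro g hg
    simp only [Fin.sum_univ_three, Matrix.cons_val_zero, Matrix.cons_val_one, Matrix.cons_val_two,
      Matrix.head_cons, Matrix.tail_cons] at hg
    have f1 := congrArg (s e₁) hg
    have f2 := congrArg (s e₂) hg
    have f3 := congrArg (s e₃) hg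
    simp [he12, he21, he13, he31, he23, he32, he₁, he₂, he₃] at f1 f2 f3
    intro i
    fin_cases i
    · exact f1
    · exact f2
    · exact f3
  have ha' : G e₁ a₀ ≠ 0 := fun h =>
    hG0 e₁ he₁ a₀ a₁ (by rw [ha01]; exact one_ne_zero) (by rw [h, map_zero, LinearMap.zero_apply])
  obtain ⟨l, hl⟩ := LinearMap.exists_leftInverse_of_injective (pu (G e₁ a₀))
    (LinearMap.ker_eq_bot'.mpr fun u hu => T.pu_inj ha' hu)
  refine ⟨G e₁, l.comp ((Matrix.mulVecLin (g : Mat)).comp (pu a₀)), fun x u => ?_⟩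
  set k := l.comp ((Matrix.mulVecLin (g : Mat)).comp (pu a₀))
  -- the identity holds on non-singular vectors, which span
  let W : Submodule F B := LinearMap.ker ((Matrix.mulVecLin (g : Mat)).comp (pu x) - (pu (G e₁ x)).comp k)
  suffices hW : u ∈ W by simpa [W, sub_eq_zero] using hW
  have hns : ∀ u', s u' u' ≠ 0 → (∃ c : F, ∀ x, G u' x = c • G e₁ x) → u' ∈ W := by
    intro u' hu' hc'
    obtain ⟨c, hc⟩ := hc'
    have hk : k u' = c • v u' := by
      have e : (g : Mat) *ᵥ pu a₀ u' = pu (G e₁ a₀) (c • v u') := by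
        rw [hG u' hu', hc, map_smul, LinearMap.smul_apply, map_smul]
      show l ((g : Mat) *ᵥ pu a₀ u') = _
      rw [e]
      exact congrArg (fun φ => φ (c • v u')) hl
    simp [W, hk, hG u' hu', hc]
  obtain ⟨c, rfl⟩ := (Submodule.mem_span_range_iff_exists_fun F).mp
    (show u ∈ Submodule.span F (Set.range ![e₁, e₂, e₃]) from
      (hli.span_eq_top_of_card_eq_finrank (by simp [hB])) ▸ trivial)
  refine W.sum_mem fun i _ => W.smul_mem _ ?_
  fin_cases i
  · exact hns e₁ he₁ ⟨1, fun x => (one_smul F _).symm⟩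
  · exact hns e₂ he₂ (hprop e₁ e₂ he₁ he₂ he12)
  · exact hns e₃ he₃ (hprop e₁ e₃ he₁ he₃ he13)

end Cfsg.Agent.H25.GeoLists.TS
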